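import Mathlib
import Cfsg.Prelude.Def_SolvableStructure
import Cfsg.Agent.H95.HallSys
import Cfsg.Agent.H10.MinNormal
import Cfsg.Agent.Solv.MinNormal

set_option autoImplicit false
open Pointwise

/-!
Cover-avoidance property of system normalizers.
-/

namespace Cfsg.Agent.H95

/-- A `q`-group modulo the centraliser of a normal `q`-subgroup has nontrivial fixed points on it. -/
theorem inf_centralizer_ne_bot {G : Type*} [Group G] [Finite G] {q : ℕ} (hq : q.Prime) (V R : Subgroup G)
    [V.Normal] (hV : V ≠ ⊥) (hVq : IsPGroup q V)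
    (hR : ∃ k, (Subgroup.centralizer (V : Set G)).relIndex R = q ^ k) :
    V ⊓ Subgroup.centralizer (R : Set G) ≠ ⊥ := by
  have : Fact q.Prime := ⟨hq⟩
  set C := Subgroup.centralizer (V : Set G) with hC
  obtain ⟨Q⟩ := (inferInstance : Nonempty (Sylow q R))
  set Q' : Subgroup G := (Q : Subgroup R).map R.subtype with hQ'
  have hQ'q : IsPGroup q Q' := Q.isPGroup'.map _
  have hQ'R : Q' ≤ R := Subgroup.map_subtype_le _
  have hsub : Q'.subgroupOf R = (Q : Subgroup R) := by
    rw [hQ', Subgroup.subgroupOf, Subgroup.comap_map_eq_self_of_injective R.subtype_injective]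
  have hQC : R ≤ C ⊔ Q' := by
    have h1 : (C ⊔ Q').relIndex R = 1 := by
      have h2 : (C ⊔ Q').relIndex R ∣ C.relIndex R := Subgroup.relIndex_dvd_of_le_left _ le_sup_left
      have h3 : (C ⊔ Q').relIndex R ∣ Q'.relIndex R := Subgroup.relIndex_dvd_of_le_left _ le_sup_right
      have h4 : Q'.relIndex R = (Q : Subgroup R).index := by
        unfold Subgroup.relIndex; rw [hsub]
      have h5 : ¬ q ∣ (Q : Subgroup R).index := Q.not_dvd_index
      obtain ⟨k, hk⟩ := hR
      rw [hk] at h2
      rw [h4] at h3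
      exact Nat.eq_one_of_dvd_coprimes
        (Nat.Coprime.pow_left k ((Nat.Prime.coprime_iff_not_dvd hq).mpr h5)) h2 h3
    exact Subgroup.relIndex_eq_one.mp h1
  set U : Subgroup G := V ⊔ Q' with hU
  have hUq : IsPGroup q U := hVq.to_sup_of_normal_left hQ'q
  have hUnil : Group.IsNilpotent U := hUq.isNilpotent
  have hVU : V ≤ U := le_sup_left
  have hVn : (V.subgroupOf U).Normal := inferInstance
  have hne : V.subgroupOf U ≠ ⊥ := by
    intro h
    rw [Subgroup.subgroupOf_eq_bot] at h
    exact hV (disjoint_self.mp (h.mono_right hVU))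
  have h1 := Solv.inf_center_ne_bot_of_nilpotent (V.subgroupOf U) hne
  obtain ⟨z, hz1⟩ := Subgroup.ne_bot_iff_exists_ne_one.mp h1
  intro hbot
  apply hz1
  have hzV : ((z : U) : G) ∈ V := Subgroup.mem_subgroupOf.mp z.2.1
  have hzU : ∀ u ∈ U, u * ((z : U) : G) = ((z : U) : G) * u := fun u hu =>
    congrArg Subtype.val (Subgroup.mem_center_iff.mp z.2.2 ⟨u, hu⟩)
  have hzR : ((z : U) : G) ∈ Subgroup.centralizer (R : Set G) := by
    have h2 : C ⊔ Q' ≤ Subgroup.centralizer {((z : U) : G)} := by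
      refine sup_le ?_ ?_
      · intro c hc
        rw [Subgroup.mem_centralizer_singleton_iff]
        exact (Subgroup.mem_centralizer_iff.mp hc _ hzV).symm
      · intro c hc
        rw [Subgroup.mem_centralizer_singleton_iff]
        exact hzU c ((le_sup_right : Q' ≤ U) hc)
    rw [Subgroup.mem_centralizer_iff]
    intro r hr
    exact Subgroup.mem_centralizer_singleton_iff.mp (h2 (hQC hr))
  have h3 : ((z : U) : G) ∈ V ⊓ Subgroup.centralizer (R : Set G) := ⟨hzV, hzR⟩
  rw [hbot, Subgroup.mem_bot] at h3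
  exact Subtype.ext (Subtype.ext h3)

/-- The system normaliser avoids a noncentral minimal normal subgroup. -/
theorem avoid_minNormal {G : Type*} [Group G] [Finite G] [Group.IsSolvable G]
    (K : Nat.Primes → Subgroup G) (hK : Cfsg.IsComplementSystem K) (V : Subgroup G)
    (hV : H10.IsMinNormal V) (hc : ¬ V ≤ Subgroup.center G) :
    V ⊓ Cfsg.systemNormalizer K = ⊥ := by
  have hVn := hV.1
  obtain ⟨q, hq, -, hVq, -⟩ := hV.elementary inferInstance
  have : Fact q.Prime := ⟨hq⟩
  set C := Subgroup.centralizer (V : Set G) with hC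
  have hCne : C ≠ ⊤ := by
    intro h
    apply hc
    intro v hv
    rw [Subgroup.mem_center_iff]
    intro g
    have : g ∈ C := by rw [h]; trivial
    exact (Subgroup.mem_centralizer_iff.mp this v hv).symm
  have : Nontrivial (G ⧸ C) := QuotientGroup.nontrivial_iff.mpr hCne
  obtain ⟨r, A, hr, hAn, hAbot, -, hAr, -⟩ := Hall.exists_normal_elementary (G := G ⧸ C)
  have : Fact r.Prime := ⟨hr⟩
  set R := A.comap (QuotientGroup.mk' C) with hR
  have hRn : R.Normal := inferInstance
  have hCR : C ≤ R := by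
    intro x hx
    rw [hR, Subgroup.mem_comap]
    have : (QuotientGroup.mk' C) x = 1 := by
      rw [← MonoidHom.mem_ker, QuotientGroup.ker_mk']; exact hx
    rw [this]; exact A.one_mem
  have hCRrel : C.relIndex R = Nat.card A := by
    have h1 := Subgroup.relIndex_ker R (QuotientGroup.mk' C)
    rw [QuotientGroup.ker_mk', hR, Subgroup.map_comap_eq_self_of_surjective (QuotientGroup.mk'_surjective C)] at h1
    exact h1
  obtain ⟨k, hk⟩ := IsPGroup.iff_card.mp hAr
  -- the fixed points of `R`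
  have hfix : V ⊓ Subgroup.centralizer (R : Set G) = ⊥ := by
    rcases hV.2.2 (V ⊓ Subgroup.centralizer (R : Set G)) inferInstance inf_le_left with h | h
    · exact h
    · exfalso
      apply hAbot
      have hle : V ≤ Subgroup.centralizer (R : Set G) := inf_eq_left.mp h
      have hRC : R ≤ C := Subgroup.le_centralizer_iff.mp hle
      rw [← Subgroup.card_eq_one, ← hCRrel]
      exact Subgroup.relIndex_eq_one.mpr hRC
  have hrq : r ≠ q := by
    rintro rfl
    exact inf_centralizer_ne_bot hr V R hV.2.1 hVq ⟨k, by rw [hCRrel, hk]⟩ hfix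
  -- `R ≤ K q ⊔ C`
  have hRK : R ≤ K ⟨q, hq⟩ ⊔ C := by
    have h1 : (K ⟨q, hq⟩ ⊔ C).relIndex R = 1 := by
      have h2 : (K ⟨q, hq⟩ ⊔ C).relIndex R ∣ C.relIndex R := Subgroup.relIndex_dvd_of_le_left _ le_sup_right
      have h3 : (K ⟨q, hq⟩ ⊔ C).relIndex R ∣ (K ⟨q, hq⟩).relIndex R := Subgroup.relIndex_dvd_of_le_left _ le_sup_left
      have h4 : (K ⟨q, hq⟩).relIndex R ∣ (K ⟨q, hq⟩).index := by
        rw [← relIndex_sup_of_normal]
        exact Subgroup.relIndex_dvd_index_of_le le_sup_left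
      rw [hK ⟨q, hq⟩] at h4
      rw [hCRrel, hk] at h2
      exact Nat.eq_one_of_dvd_coprimes (Nat.Coprime.pow _ _ ((Nat.coprime_primes hr hq).mpr hrq)) h2
        (h3.trans h4)
    exact Subgroup.relIndex_eq_one.mp h1
  rw [eq_bot_iff]
  intro v hv
  rw [← hfix]
  refine ⟨hv.1, ?_⟩
  have hcop : V ⊓ K ⟨q, hq⟩ = ⊥ := by
    rw [← disjoint_iff]
    apply Subgroup.disjoint_of_coprime_natCard
    obtain ⟨n, hn⟩ := IsPGroup.iff_card.mp hVq
    rw [hn]
    exact Nat.Coprime.pow_left _ ((Nat.Prime.coprime_iff_not_dvd hq).mpr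
      ((index_eq_iff q hq _).mp (hK ⟨q, hq⟩)).2)
  have hvN : v ∈ Subgroup.normalizer (K ⟨q, hq⟩ : Set G) := Subgroup.mem_iInf.mp hv.2 ⟨q, hq⟩
  have h5 : K ⟨q, hq⟩ ⊔ C ≤ Subgroup.centralizer {v} := by
    refine sup_le ?_ ?_
    · intro x hx
      rw [Subgroup.mem_centralizer_singleton_iff]
      have h6 : v * x * v⁻¹ * x⁻¹ ∈ V ⊓ K ⟨q, hq⟩ := by
        refine ⟨?_, ?_⟩
        · have h7 : x * v⁻¹ * x⁻¹ ∈ V := hVn.conj_mem _ (V.inv_mem hv.1) x
          have h8 := V.mul_mem hv.1 h7
          have h9 : v * x * v⁻¹ * x⁻¹ = v * (x * v⁻¹ * x⁻¹) := by group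
          rw [h9]; exact h8
        · exact (K ⟨q, hq⟩).mul_mem ((Subgroup.mem_normalizer_iff.mp hvN x).mp hx)
            ((K ⟨q, hq⟩).inv_mem hx)
      rw [hcop, Subgroup.mem_bot] at h6
      have h7 : v * x = x * v := by
        have := mul_inv_eq_one.mp h6
        exact mul_inv_eq_iff_eq_mul.mp this
      exact h7.symm
    · intro c hc
      rw [Subgroup.mem_centralizer_singleton_iff]
      exact (Subgroup.mem_centralizer_iff.mp hc _ hv.1).symm
  show v ∈ Subgroup.centralizer (R : Set G)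
  rw [Subgroup.mem_centralizer_iff]
  intro x hx
  exact Subgroup.mem_centralizer_singleton_iff.mp (h5 (hRK hx))

/-- Cover-avoidance. -/
theorem cover_avoid {G : Type*} [Group G] [Finite G] [Group.IsSolvable G] (K : Nat.Primes → Subgroup G)
    (hK : Cfsg.IsComplementSystem K) (A B : Subgroup G) [A.Normal] [hBn : B.Normal] (hAB : A < B)
    (hchief : ∀ N : Subgroup G, N.Normal → A ≤ N → N ≤ B → N = A ∨ N = B) :
    (⁅B, (⊤ : Subgroup G)⁆ ≤ A → B ≤ A ⊔ Cfsg.systemNormalizer K) ∧
      (¬ ⁅B, (⊤ : Subgroup G)⁆ ≤ A → B ⊓ Cfsg.systemNormalizer K ≤ A) := by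
  have hsurj := QuotientGroup.mk'_surjective A
  have hker := QuotientGroup.ker_mk' A
  set V := B.map (QuotientGroup.mk' A) with hV
  have hVn : V.Normal := hBn.map _ hsurj
  have hcomapV : V.comap (QuotientGroup.mk' A) = B := by
    rw [hV, Subgroup.comap_map_eq, hker, sup_eq_left.mpr hAB.le]
  have hmin : H10.IsMinNormal V := by
    refine ⟨hVn, ?_, ?_⟩
    · intro h
      rw [hV, Subgroup.map_eq_bot_iff, hker] at h
      exact hAB.not_ge h
    · intro N hN hNV
      have h1 : A ≤ N.comap (QuotientGroup.mk' A) := by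
        intro x hx
        rw [Subgroup.mem_comap]
        have : (QuotientGroup.mk' A) x = 1 := by rw [← MonoidHom.mem_ker, hker]; exact hx
        rw [this]; exact N.one_mem
      have h2 : N.comap (QuotientGroup.mk' A) ≤ B := by
        rw [← hcomapV]; exact Subgroup.comap_mono hNV
      have h3 := Subgroup.map_comap_eq_self_of_surjective hsurj N
      rcases hchief _ (hN.comap _) h1 h2 with h | h
      · left
        rw [← h3, h, Subgroup.map_eq_bot_iff, hker]
      · right
        rw [← h3, h]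
  have hsys := systemNormalizer_map K hK A
  have hKA := isComplementSystem_map K hK A
  have hcent : V ≤ Subgroup.center (G ⧸ A) ↔ ⁅B, (⊤ : Subgroup G)⁆ ≤ A := by
    rw [← Subgroup.centralizer_univ, ← Subgroup.coe_top, ← Subgroup.commutator_eq_bot_iff_le_centralizer,
      hV, ← Subgroup.map_top_of_surjective _ hsurj, ← Subgroup.map_commutator, Subgroup.map_eq_bot_iff, hker]
  constructor
  · intro h
    have h1 := hcent.mpr h
    have h2 : V ≤ Cfsg.systemNormalizer (fun p => (K p).map (QuotientGroup.mk' A)) :=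
      h1.trans (le_iInf fun p => Subgroup.center_le_normalizer _)
    rw [hsys] at h2
    have h3 := Subgroup.comap_mono (f := QuotientGroup.mk' A) h2
    rw [hcomapV, Subgroup.comap_map_eq, hker, sup_comm] at h3
    exact h3
  · intro h
    have h1 := avoid_minNormal _ hKA V hmin (fun h' => h (hcent.mp h'))
    rw [hsys] at h1
    intro x hx
    have h2 : (QuotientGroup.mk' A) x ∈ V ⊓ (Cfsg.systemNormalizer K).map (QuotientGroup.mk' A) :=
      ⟨⟨x, hx.1, rfl⟩, ⟨x, hx.2, rfl⟩⟩
    rw [h1, Subgroup.mem_bot, ← MonoidHom.mem_ker, hker] at h2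
    exact h2

end Cfsg.Agent.H95
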