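import Cfsg.Agent.H92.FrT
import Cfsg.Agent.SmallDim.Fr.Dich

/-!
Frames: the geometric statement for dimension at least ten.
-/

set_option autoImplicit false

namespace Cfsg.Agent.H95.OmAny

open QuadraticMap Module Cfsg.Agent.Orth Cfsg.Agent.GeoMax.Ort Cfsg.Agent.SmallDim.Fr

theorem frame_any {F : Type*} [Field F] [Fintype F] {ι : Type} [Fintype ι] [DecidableEq ι] (hp : (Fintype.card F).Prime)
    (hodd : Odd (Fintype.card F))
    (Q : (ι → F) → F) (hQ : Cfsg.Geo.IsNondegenerateQuadraticForm Q)
    (hcard : 10 ≤ Fintype.card ι) {t : ℕ} (D : Fin t → Submodule F (ι → F))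
    (hD : Cfsg.Geo.IsOrthogonalMDecomposition Q 1 D) :
    Cfsg.Geo.IsMaximalIn (Cfsg.Geo.omegaGL Q) (Cfsg.Geo.decompositionStabilizer D ⊓ Cfsg.Geo.omegaGL Q) :=
  Cfsg.Agent.H92.FrT.frame_geo_of
    (fun t M ht hM hr => dichotomy hp (by rw [Fintype.card_fin]; exact ht) hM hr) Q hQ hodd hcard D hD

theorem geo_nondeg {F : Type*} [Field F] {ι : Type} [Fintype ι] [DecidableEq ι] (Q : QuadraticForm F (ι → F))
    (hQ : (polarBilin Q).Nondegenerate) : Cfsg.Geo.IsNondegenerateQuadraticForm (Q : (ι → F) → F) where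
  smul c v := by rw [QuadraticMap.map_smul, smul_eq_mul, pow_two]
  polar_bilinear :=
    { add_left := fun x y v => QuadraticMap.polar_add_left Q x y v
      smul_left := fun c x v => by rw [QuadraticMap.polar_smul_left, smul_eq_mul]
      add_right := fun v x y => QuadraticMap.polar_add_right Q v x y
      smul_right := fun c v x => by rw [QuadraticMap.polar_smul_right, smul_eq_mul] }
  nondegenerate := by
    intro v hv
    have key : ∃ x, polar Q v x ≠ 0 := by
      by_contra hcon
      push Not at hcon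
      exact hv (hQ.1 v fun x => by rw [polarBilin_apply_apply]; exact hcon x)
    refine ⟨?_, key⟩
    obtain ⟨x, hx⟩ := key
    exact ⟨x, by rw [polar_comm]; exact hx⟩

end Cfsg.Agent.H95.OmAny
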