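import Cfsg.Agent.H94.OmMinus
import Cfsg.Agent.H95.OmFrame

/-!
Isometric decompositions into spaces of dimension at least three, any index type, odd characteristic.
-/

set_option autoImplicit false
set_option linter.unusedSectionVars false
set_option linter.unusedVariables false

namespace Cfsg.Agent.H95.OmAny

open QuadraticMap Cfsg.Agent.Orth Cfsg.Agent.OMax Cfsg.Geo Cfsg.Agent.ODec Cfsg.Agent

theorem dec_iota {F : Type*} [Field F] [Fintype F] {ι : Type} [Fintype ι] [DecidableEq ι]
    (hn : 7 ≤ Fintype.card ι) (Q : QuadraticForm F (ι → F))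
    (hQ : (polarBilin Q).Nondegenerate) (hodd : Odd (Fintype.card F)) {t : ℕ} (k : ℕ) (hk : 3 ≤ k)
    (D : Fin t → Submodule F (ι → F))
    (hD : IsOrthogonalMDecomposition ⇑Q k D)
    (h3 : k = 3 → Fintype.card F ≠ 3) :
    IsMaximalIn (omegaGL ⇑Q) (decompositionStabilizer D ⊓ omegaGL ⇑Q) := by
  have hfr : Module.finrank F (ι → F) = Fintype.card ι := Module.finrank_fintype_fun_eq_card F
  have ht : 2 ≤ t := hD.decomp.decomp.two_le
  have hF : OMax.IsFrame Q k D := OMax.isFrame_of_decomp hD
  refine OMax.isMaximalIn_of_abstract Q (Cfsg.Geo.decompositionStabilizer D)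
    (fun g => ∃ σ : Equiv.Perm (Fin t), ∀ i, OMax.act g (D i) = D (σ i))
    (OMax.mem_decompStab_iff _ D) ?_ ?_
  · refine proper_of_not_le Q ?_
    exact OCase.not_omegaGL_le_decompositionStabilizer hQ (by omega)
      hD.decomp.decomp
  · intro M _ hHM hM
    have h20 : (2 : F) ≠ 0 := Orth.two_ne_zero_of_odd hodd
    refine OMax.frame_maximal ⟨hQ, h20, by rw [hfr]; omega, by omega, ?_, hF, hHM⟩
      (OMax.isom_of_decomp hD) hM
    by_cases h4' : 4 ≤ k
    · exact Or.inl h4'
    · right
      have h3' := h3 (by omega)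
      have hcF : Nat.card F = Fintype.card F := Nat.card_eq_fintype_card
      have h1 : 1 < Fintype.card F := Fintype.one_lt_card
      obtain ⟨a, ha⟩ := hodd
      omega

end Cfsg.Agent.H95.OmAny
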