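import Cfsg.Agent.H95.TD7
import Cfsg.Agent.H94.ND8d
import Cfsg.Agent.H98.Or2C
import Cfsg.Agent.H98.SFE

/-!
Clauses of the tables for orthogonal groups in even dimension, any type.
-/

set_option autoImplicit false
set_option linter.unusedSectionVars false
set_option linter.unusedVariables false

namespace Cfsg.Agent.H95.OmAny

open QuadraticMap Module Cfsg.Agent.Orth Cfsg.Agent.GeoMax.Ort Cfsg.Agent.H94.ND8

theorem par_any {F : Type*} [Field F] [Fintype F] {n : ℕ} (hn : 7 ≤ n) (Q : (Fin n → F) → F)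
    (hQ : Cfsg.Geo.IsNondegenerateQuadraticForm Q) (W : Submodule F (Fin n → F)) (hW0 : W ≠ ⊥)
    (hW : Cfsg.Geo.IsTotallySingularQuad Q W) (hd : n ≠ 2 * finrank F W + 2) :
    Cfsg.Geo.IsMaximalIn (Cfsg.Geo.omegaGL Q) (Cfsg.Geo.subspaceStabilizer W ⊓ Cfsg.Geo.omegaGL Q) := by
  have hfr : Module.finrank F (Fin n → F) = n := by
    rw [Module.finrank_fintype_fun_eq_card]; simp
  refine isMaximalIn_omegaGL (toQF hQ) (mem_stabO_iff_emGL _ W) ?_
  exact parabolic_maximal (toQF_nondeg hQ) (by omega) W hW0 hW (fun h => absurd (by omega) hd)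

section
variable {F : Type*} [Field F] [Fintype F]

theorem nd_aux {n : ℕ} (Q : (Fin n → F) → F)
    (hQ : Cfsg.Geo.IsNondegenerateQuadraticForm Q) (W : Submodule F (Fin n → F)) (h6 : 6 ≤ finrank F W)
    (hlt : n < 2 * finrank F W) (hW1 : W ≠ ⊤) (hW : W ⊓ perp (toQF hQ) W = ⊥)
    (hex : finrank F (perp (toQF hQ) W) = 2 → (∃ s ∈ perp (toQF hQ) W, s ≠ 0 ∧ (toQF hQ) s = 0) → 4 ≤ Nat.card F) :
    Cfsg.Geo.IsMaximalIn (commutator (OGrp (toQF hQ))) (stabO (toQF hQ) W ⊓ commutator (OGrp (toQF hQ))) := by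
  have hfr : Module.finrank F (Fin n → F) = n := by
    rw [Module.finrank_fintype_fun_eq_card]; simp
  have hnd := toQF_nondeg hQ
  have hd := finrank_perp hnd W
  refine nd_maximal6 hnd hW h6 ?_ ?_ hex
  · intro h
    rw [h, finrank_bot, zero_add] at hd
    exact hW1 (Submodule.eq_top_of_finrank_eq hd)
  · intro g _ hg
    have h1 := Submodule.finrank_mono hg
    rw [LinearEquiv.finrank_map_eq] at h1
    omega

/-- Non-degenerate subspaces, not half-dimensional, one summand of dimension at least six. -/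
theorem nd_any {n : ℕ} (Q : (Fin n → F) → F)
    (hQ : Cfsg.Geo.IsNondegenerateQuadraticForm Q)
    (W : Submodule F (Fin n → F)) (hW0 : W ≠ ⊥) (hW1 : W ≠ ⊤)
    (hne : 2 * finrank F W ≠ n) (h6 : 6 ≤ finrank F W ∨ finrank F W + 6 ≤ n)
    (hW : Cfsg.Geo.IsNondegenerateOn (QuadraticMap.polar Q) W)
    (hex1 : finrank F W = 2 → (∃ s ∈ W, s ≠ 0 ∧ Q s = 0) → 4 ≤ Fintype.card F)
    (hex2 : finrank F W + 2 ≠ n) :
    Cfsg.Geo.IsMaximalIn (Cfsg.Geo.omegaGL Q) (Cfsg.Geo.subspaceStabilizer W ⊓ Cfsg.Geo.omegaGL Q) := by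
  refine isMaximalIn_omegaGL (toQF hQ) (mem_stabO_iff_emGL _ _) ?_
  have hfr : Module.finrank F (Fin n → F) = n := by
    rw [Module.finrank_fintype_fun_eq_card]; simp
  have hnd := toQF_nondeg hQ
  have hWp : W ⊓ perp (toQF hQ) W = ⊥ := inf_perp_of_geo hW
  have hd := finrank_perp hnd W
  rcases Nat.lt_or_ge (finrank F W) (finrank F (perp (toQF hQ) W)) with h | h
  · rw [← stabO_perp hnd]
    refine nd_aux Q hQ (perp (toQF hQ) W) (by omega) (by omega) ?_ (perp_nd hnd hWp) ?_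
    · intro htop
      rw [htop, finrank_top, hfr] at hd
      have : finrank F W = 0 := by omega
      exact hW0 (Submodule.finrank_eq_zero.1 this)
    · rw [perp_perp hnd, Nat.card_eq_fintype_card]
      exact hex1
  · refine nd_aux Q hQ W (by omega) (by omega) hW1 hWp ?_
    intro h2
    omega

/-- self-adjoint extension fields -/
theorem sa_any {n : ℕ} (hn : 7 ≤ n) (Q : (Fin n → F) → F) (hQ : Cfsg.Geo.IsNondegenerateQuadraticForm Q)
    (hodd : Odd (Fintype.card F)) {r : ℕ} (hr : r.Prime) (h3 : 3 * r ≤ n) (h8 : r = 2 → 8 ≤ n)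
    (K : Subalgebra F (Matrix (Fin n) (Fin n) F)) (hK : Cfsg.Geo.IsFieldSubalgebra r K)
    (hsa : Cfsg.Geo.IsSelfAdjointFor (QuadraticMap.polar Q) K) :
    Cfsg.Geo.IsMaximalIn (Cfsg.Geo.omegaGL Q) (Cfsg.Geo.subalgebraNormalizer K ⊓ Cfsg.Geo.omegaGL Q) := by
  have h2 := Cfsg.Agent.GeoMax.Ort.two_ne_zero_of_odd hodd
  have key := Cfsg.Agent.H98.Or.or_maximal_low (Q := Cfsg.Agent.GeoMax.Ort.toQF hQ)
    (Cfsg.Agent.GeoMax.Ort.toQF_nondeg hQ) K hK hsa h2 hr
    (by simpa using hn) (by simpa using h3) (fun h => by simpa using h8 h)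
  exact key

end

end Cfsg.Agent.H95.OmAny
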