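import Cfsg.Agent.H95.OmAny
import Cfsg.Agent.H95.OmFrame
import Cfsg.Agent.OCase.Cases2

/-!
Clauses of the tables for orthogonal groups in dimensions 10 and 12.
-/

set_option autoImplicit false
set_option linter.unusedSectionVars false
set_option linter.unusedVariables false

namespace Cfsg.Agent.H95.OmAny

open QuadraticMap Module Cfsg.Agent.Orth Cfsg.Agent.GeoMax.Ort Cfsg.Agent.H94.ND8

variable {F : Type*} [Field F] [Fintype F]

theorem nd_row_odd {n : ℕ} (hn : n = 10 ∨ n = 12) (Q : (Fin n → F) → F)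
    (hQ : Cfsg.Geo.IsNondegenerateQuadraticForm Q)
    (W : Submodule F (Fin n → F)) (hW0 : W ≠ ⊥) (hW1 : W ≠ ⊤) (hWo : Odd (finrank F W))
    (hne : 2 * finrank F W ≠ n)
    (hW : Cfsg.Geo.IsNondegenerateOn (QuadraticMap.polar Q) W) :
    Cfsg.Geo.IsMaximalIn (Cfsg.Geo.omegaGL Q) (Cfsg.Geo.subspaceStabilizer W ⊓ Cfsg.Geo.omegaGL Q) := by
  obtain ⟨k, hk⟩ := hWo
  exact nd_any Q hQ W hW0 hW1 hne (by omega) hW (fun h => absurd h (by omega)) (by omega)

theorem nd_row_two {n : ℕ} (hn : n = 10 ∨ n = 12) (Q : (Fin n → F) → F)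
    (hQ : Cfsg.Geo.IsNondegenerateQuadraticForm Q)
    (W : Submodule F (Fin n → F)) (hW2 : finrank F W = 2)
    (hW : Cfsg.Geo.IsNondegenerateOn (QuadraticMap.polar Q) W)
    (hex : Cfsg.Geo.IsPlusTypeOn Q W → 4 ≤ Fintype.card F) :
    Cfsg.Geo.IsMaximalIn (Cfsg.Geo.omegaGL Q) (Cfsg.Geo.subspaceStabilizer W ⊓ Cfsg.Geo.omegaGL Q) := by
  have hfr : Module.finrank F (Fin n → F) = n := by
    rw [Module.finrank_fintype_fun_eq_card]; simp
  refine nd_any Q hQ W ?_ ?_ (by omega) (by omega) hW (fun _ hs => hex ?_) (by omega)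
  · rintro rfl
    rw [finrank_bot] at hW2
    omega
  · rintro rfl
    rw [finrank_top, hfr] at hW2
    omega
  · obtain ⟨s, hs, hs0, hq⟩ := hs
    refine ⟨Submodule.span F {s}, ?_, ?_, ?_⟩
    · rw [Submodule.span_singleton_le_iff_mem]; exact hs
    · intro w hw
      obtain ⟨c, rfl⟩ := Submodule.mem_span_singleton.1 hw
      rw [hQ.smul, hq, mul_zero]
    · rw [finrank_span_singleton hs0, hW2]

theorem nd_row_four {n : ℕ} (hn : n = 10 ∨ n = 12) (Q : (Fin n → F) → F)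
    (hQ : Cfsg.Geo.IsNondegenerateQuadraticForm Q)
    (W : Submodule F (Fin n → F)) (hW4 : finrank F W = 4)
    (hW : Cfsg.Geo.IsNondegenerateOn (QuadraticMap.polar Q) W) :
    Cfsg.Geo.IsMaximalIn (Cfsg.Geo.omegaGL Q) (Cfsg.Geo.subspaceStabilizer W ⊓ Cfsg.Geo.omegaGL Q) := by
  have hfr : Module.finrank F (Fin n → F) = n := by
    rw [Module.finrank_fintype_fun_eq_card]; simp
  refine nd_any Q hQ W ?_ ?_ (by omega) (by omega) hW (fun h => absurd h (by omega)) (by omega)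
  · rintro rfl
    rw [finrank_bot] at hW4
    omega
  · rintro rfl
    rw [finrank_top, hfr] at hW4
    omega

/-- in a minus-type space, the members of an isometric decomposition into an odd number of even-dimensional spaces
are of minus type -/
theorem minus_decomp {n : ℕ} (Q : (Fin n → F) → F)
    (hQ : Cfsg.Geo.IsNondegenerateQuadraticForm Q) (hminus : ¬ Cfsg.Geo.IsPlusTypeOn Q ⊤) {t k : ℕ} (hk : Even k)
    (D : Fin t → Submodule F (Fin n → F))
    (hD : Cfsg.Geo.IsOrthogonalMDecomposition Q k D) (i : Fin t) : ¬ Cfsg.Geo.IsPlusTypeOn Q (D i) := by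
  intro hi
  apply hminus
  obtain ⟨q, rfl, hq'⟩ := Cfsg.Agent.OCase.exists_qf hQ
  rw [Cfsg.Agent.OCase.isPlusTypeOn_top_iff]
  rw [Cfsg.Agent.OCase.isPlusTypeOn_iff] at hi
  exact (Cfsg.Agent.OCase.isPlus_iff_of_decomp hD hk i).2 (Or.inl hi)

end Cfsg.Agent.H95.OmAny
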