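import Mathlib

set_option autoImplicit false

namespace Cfsg.Agent.H95

/-- Restriction of a homomorphism injective on `H` gives an isomorphism onto the image. -/
theorem nonempty_equiv_map {G G' : Type*} [Group G] [Group G'] (f : G →* G') (H : Subgroup G)
    (h : H ⊓ f.ker = ⊥) : Nonempty (H ≃* H.map f) := by
  have hinj : Function.Injective (f.comp H.subtype) := by
    rw [injective_iff_map_eq_one]
    intro a ha
    have : (a : G) ∈ H ⊓ f.ker := ⟨a.2, ha⟩
    rw [h, Subgroup.mem_bot] at this
    exact Subtype.ext this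
  have hr : (f.comp H.subtype).range = H.map f := by
    rw [MonoidHom.range_comp, Subgroup.range_subtype]
  exact ⟨(MonoidHom.ofInjective hinj).trans (MulEquiv.subgroupCongr hr)⟩

/-- Two complements of the same normal subgroup `N` in `H ⊔ N = K ⊔ N` are isomorphic. -/
theorem nonempty_equiv_of_sup_eq {G : Type*} [Group G] (N H K : Subgroup G) [N.Normal]
    (hH : H ⊓ N = ⊥) (hK : K ⊓ N = ⊥) (h : H ⊔ N = K ⊔ N) : Nonempty (H ≃* K) := by
  obtain ⟨e1⟩ := nonempty_equiv_map (QuotientGroup.mk' N) H (by rw [QuotientGroup.ker_mk', hH])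
  obtain ⟨e2⟩ := nonempty_equiv_map (QuotientGroup.mk' N) K (by rw [QuotientGroup.ker_mk', hK])
  have h3 : H.map (QuotientGroup.mk' N) = K.map (QuotientGroup.mk' N) := by
    rw [Subgroup.map_eq_map_iff, QuotientGroup.ker_mk', h]
  exact ⟨e1.trans ((MulEquiv.subgroupCongr h3).trans e2.symm)⟩

end Cfsg.Agent.H95
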