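import Cfsg.Agent.ODec.FourB

/-!
Frames of planes with few members: spreading Siegel transformations.
-/

set_option autoImplicit false
set_option linter.unusedSectionVars false
set_option linter.unusedVariables false

namespace Cfsg.Agent.H95.TD

open QuadraticMap Cfsg.Agent.Orth Cfsg.Agent.OMax Cfsg.Agent.ODec

variable {F V : Type*} [Field F] [AddCommGroup V] [Module F V]

section

variable [Finite F] [FiniteDimensional F V] {Q : QuadraticForm F V} {M : Subgroup (OGrp Q)}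
  {t : ℕ} {D : Fin t → Submodule F V} {u : V}

/-- **Spreading**: one Siegel transformation with small support suffices. -/
theorem _root_.Cfsg.Agent.ODec.DC.spread3 (C : DC Q M 2 D) (hG : ∀ i, Good Q (D i)) (I : Finset (Fin t))
    (hIt : I.card + 3 ≤ t) {z : V} (hz : Q z = 0) (hz0 : z ≠ 0) (hzI : ∀ i, i ∉ I → ∀ y ∈ D i, polar Q z y = 0)
    {l₀ : Fin t} (hl₀ : l₀ ∉ I) {y₀ : V} (hy₀ : y₀ ∈ D l₀) (hy₀0 : y₀ ≠ 0) (hE : HasE M z y₀) :
    commutator (OGrp Q) ≤ M := by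
  classical
  -- step 1
  have h1 : ∀ y ∈ D l₀, HasE M z y := by
    obtain ⟨l', hl'⟩ := exists_not_mem_finset (insert l₀ I) (by
      have := Finset.card_insert_le l₀ I
      omega)
    rw [Finset.mem_insert, not_or] at hl'
    refine (hG l₀).span (A := EA M hz) (fun v hv hqv w hw hwD => ?_) hE hy₀ hy₀0
    rw [mem_EA] at hw ⊢
    obtain ⟨v', hv', hqv'⟩ := C.exists_q l' (Q v)
    have hqv'0 : Q v' ≠ 0 := by rw [hqv']; exact hqv
    have hM := C.refl_pair hv hv' hqv hqv'0 ⟨Q v, by rw [hqv']⟩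
    have h2 := hw.conj hM
    have e1 : ((refl Q v hqv * refl Q v' hqv'0 : OGrp Q) : V ≃ₗ[F] V) z = z := by
      rw [coe_mul_apply, refl_apply_of_ortho hqv'0 (hzI l' hl'.2 v' hv'),
        refl_apply_of_ortho hqv (hzI l₀ hl₀ v hv)]
    have e2 : ((refl Q v hqv * refl Q v' hqv'0 : OGrp Q) : V ≃ₗ[F] V) w =
        w - ((Q v)⁻¹ * polar Q w v) • v := by
      rw [coe_mul_apply, refl_apply_of_ortho hqv'0 (C.hD.orth l₀ l' (Ne.symm hl'.1) w hwD v' hv'), refl_apply]
    rw [e1, e2] at h2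
    have h3 := hw.sub h2
    rwa [sub_sub_cancel] at h3
  -- step 2
  have hcomp : ∀ (i : Fin t) (x : V), x ∈ D i → ∀ j, j ≠ i → ∀ y ∈ D j, polar Q x y = 0 :=
    fun i x hx j hj y hy => C.hD.orth i j (Ne.symm hj) x hx y hy
  have h2 : ∀ l, l ∉ I → ∀ y ∈ D l, HasE M z y := by
    intro l hl y hy
    by_cases hll : l = l₀
    · subst hll; exact h1 y hy
    obtain ⟨g, hg, hfix, hmap⟩ := C.swap (j := l₀) (l := l) (Ne.symm hll)
    obtain ⟨x, hx, rfl⟩ := hmap y hy
    have h3 := (h1 x hx).conj hg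
    have h4 : (g : V ≃ₗ[F] V) z = z := by
      obtain ⟨c, hc, hsum⟩ := C.hD.sup z
      have h5 : ∀ i, (g : V ≃ₗ[F] V) (c i) = c i := by
        intro i
        by_cases hi : i ∈ I
        · refine hfix i ?_ ?_ _ (hc i)
          · rintro rfl; exact hl₀ hi
          · rintro rfl; exact hl hi
        · have : c i = 0 := comp_eq_zero C.hD hc (fun y hy => by rw [← hsum]; exact hzI i hi y hy)
          rw [this, map_zero]
      rw [hsum, map_sum]
      exact Finset.sum_congr rfl fun i _ => h5 i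
    rwa [h4] at h3
  -- the space `E`
  let E : Submodule F V :=
    { carrier := {y | ∀ i ∈ I, ∀ x ∈ D i, polar Q y x = 0}
      add_mem' := by
        intro a b ha hb i hi x hx
        rw [pal, ha i hi x hx, hb i hi x hx, add_zero]
      zero_mem' := by intro i hi x hx; rw [polar_zero_left]
      smul_mem' := by
        intro r a ha i hi x hx
        rw [psl, ha i hi x hx, mul_zero] }
  have hEmem : ∀ y, y ∈ E ↔ ∀ i ∈ I, ∀ x ∈ D i, polar Q y x = 0 := fun y => Iff.rfl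
  have hDE : ∀ l, l ∉ I → ∀ y ∈ D l, y ∈ E := fun l hl y hy i hi x hx =>
    hcomp l y hy i (by rintro rfl; exact hl hi) x hx
  have hzE : ∀ y ∈ E, HasE M z y := by
    intro y hy
    obtain ⟨c, hc, hsum⟩ := C.hD.sup y
    have h3 : ∀ i, c i ∈ EA M hz := by
      intro i
      by_cases hi : i ∈ I
      · have : c i = 0 := comp_eq_zero C.hD hc (fun x hx => by rw [← hsum]; exact hy i hi x hx)
        rw [this]; exact (EA M hz).zero_mem
      · exact h2 i hi _ (hc i)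
    rw [hsum, ← mem_EA hz]
    exact AddSubgroup.sum_mem _ fun i _ => h3 i
  -- the opposite vector
  obtain ⟨i, hi, v, hv, hqv, hzv⟩ : ∃ i ∈ I, ∃ v ∈ D i, Q v ≠ 0 ∧ polar Q z v ≠ 0 := by
    obtain ⟨c, hc, hsum⟩ := C.hD.sup z
    obtain ⟨i, hi⟩ : ∃ i, c i ≠ 0 := by
      by_contra hcon
      push Not at hcon
      exact hz0 (by rw [hsum]; exact Finset.sum_eq_zero fun i _ => hcon i)
    have hiI : i ∈ I := by
      by_contra hiI
      exact hi (comp_eq_zero C.hD hc (fun y hy => by rw [← hsum]; exact hzI i hiI y hy))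
    obtain ⟨v, hv, hqv, h3⟩ := Good.exists_q_nonortho C.hD hG (hc i) hi
    exact ⟨i, hiI, v, hv, hqv, by rw [hsum, C.hD.polar_comp hc i hv]; exact h3⟩
  obtain ⟨l', hl'⟩ := exists_not_mem_finset I (by omega)
  obtain ⟨v', hv', hqv'⟩ := C.exists_q l' (Q v)
  have hqv'0 : Q v' ≠ 0 := by rw [hqv']; exact hqv
  have hM := C.refl_pair hv hv' hqv hqv'0 ⟨Q v, by rw [hqv']⟩
  obtain ⟨z', hz'⟩ : ∃ z', z' = (refl Q v hqv : V ≃ₗ[F] V) z := ⟨_, rfl⟩
  have hqz' : Q z' = 0 := by rw [hz', OGrp_q, hz]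
  have hzz' : polar Q z z' ≠ 0 := by
    rw [hz', refl_apply, pdr, psr, pself, hz, mul_zero, zero_sub]
    exact neg_ne_zero.2 (mul_ne_zero (mul_ne_zero (inv_ne_zero hqv) hzv) hzv)
  have hz'E : ∀ y ∈ E, HasE M z' y := by
    intro y hy
    have e1 : ((refl Q v hqv * refl Q v' hqv'0 : OGrp Q) : V ≃ₗ[F] V) z = z' := by
      rw [coe_mul_apply, refl_apply_of_ortho hqv'0 (hzI l' hl' v' hv'), hz']
    have hy2 : ((refl Q v' hqv'0 : OGrp Q) : V ≃ₗ[F] V) y ∈ E := by
      rw [refl_apply]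
      exact E.sub_mem hy (E.smul_mem _ (hDE l' hl' v' hv'))
    have h3 := (hzE _ hy2).conj hM
    rw [e1, coe_mul_apply] at h3
    have h4 : ((refl Q v' hqv'0 : OGrp Q) : V ≃ₗ[F] V) (((refl Q v' hqv'0 : OGrp Q) : V ≃ₗ[F] V) y) = y := by
      rw [← coe_mul_apply, refl_mul_self, coe_one_apply]
    rw [h4, refl_apply_of_ortho hqv (hy i hi v hv)] at h3
    exact h3
  -- normalise
  obtain ⟨z'', hz''⟩ : ∃ z'', z'' = (polar Q z z')⁻¹ • z' := ⟨_, rfl⟩
  have hqz'' : Q z'' = 0 := by rw [hz'', qsmul, hqz', mul_zero]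
  have hzz'' : polar Q z z'' = 1 := by rw [hz'', psr, inv_mul_cancel₀ hzz']
  have hz''E : ∀ y ∈ E, HasE M z'' y := by
    intro y hy
    rw [hz'', hasE_smul_left (inv_ne_zero hzz')]
    exact hz'E _ (E.smul_mem _ hy)
  -- three further indices
  obtain ⟨a, ha⟩ := exists_not_mem_finset I (by omega)
  obtain ⟨b, hb⟩ := exists_not_mem_finset (insert a I) (by
    have := Finset.card_insert_le a I
    omega)
  obtain ⟨c, hc⟩ := exists_not_mem_finset (insert b (insert a I)) (by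
    have := Finset.card_insert_le b (insert a I)
    have := Finset.card_insert_le a I
    omega)
  simp only [Finset.mem_insert, not_or] at hb hc
  have key : ∀ w : V, Q w = 0 → (∀ i, i ≠ a → i ≠ b → ∀ y ∈ D i, polar Q w y = 0) →
      ∀ y, polar Q w y = 0 → HasE M w y := by
    intro w hqw hw y hwy
    have hwE : w ∈ E := fun i hi x hx => hw i (by rintro rfl; exact ha hi) (by rintro rfl; exact hb.2 hi) x hx
    have h3 : ∀ x ∈ E, polar Q w x = 0 → HasE M w x := fun x hx hwx =>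
      hasE_of_pair hz hqz'' hzz'' hzE hz''E hwE hx hqw hwx
    obtain ⟨d, hd, hsum⟩ := C.hD.sup y
    have h4 : ∀ l, l ≠ a → l ≠ b → HasE M w (d l) := by
      intro l hla hlb
      by_cases hlc : l = c
      · rw [hlc]
        exact h3 _ (hDE c hc.2.2 _ (hd c)) (hw c hc.2.1 hc.1 _ (hd c))
      · obtain ⟨g, hg, hfix, hmap⟩ := C.swap (j := c) (l := l) (Ne.symm hlc)
        obtain ⟨x, hx, hgx⟩ := hmap (d l) (hd l)
        have h5 := (h3 x (hDE c hc.2.2 _ hx) (hw c hc.2.1 hc.1 _ hx)).conj hg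
        have h6 : (g : V ≃ₗ[F] V) w = w := by
          obtain ⟨e, he, hsum⟩ := C.hD.sup w
          have h7 : ∀ i, (g : V ≃ₗ[F] V) (e i) = e i := by
            intro i
            by_cases hia : i = a
            · subst hia
              exact hfix i (Ne.symm hc.2.1) (Ne.symm hla) _ (he i)
            by_cases hib : i = b
            · subst hib
              exact hfix i (Ne.symm hc.1) (Ne.symm hlb) _ (he i)
            · have : e i = 0 := comp_eq_zero C.hD he (fun y hy => by rw [← hsum]; exact hw i hia hib y hy)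
              rw [this, map_zero]
          rw [hsum, map_sum]
          exact Finset.sum_congr rfl fun i _ => h7 i
        rwa [h6, hgx] at h5
    have h5 : y = (d a + d b) + ∑ i ∈ (Finset.univ.erase a).erase b, d i := by
      rw [hsum, ← Finset.add_sum_erase _ _ (Finset.mem_univ a),
        ← Finset.add_sum_erase (Finset.univ.erase a) _ (Finset.mem_erase.2 ⟨hb.1, Finset.mem_univ b⟩), add_assoc]
    have h6 : HasE M w (∑ i ∈ (Finset.univ.erase a).erase b, d i) := by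
      rw [← mem_EA hqw]
      refine AddSubgroup.sum_mem _ fun i hi => ?_
      rw [Finset.mem_erase, Finset.mem_erase] at hi
      exact h4 i hi.2.1 hi.1
    rw [h5]
    refine HasE.add (h3 _ (E.add_mem (hDE a ha _ (hd a)) (hDE b hb.2 _ (hd b))) ?_) h6
    rw [h5, par, h6.pab, add_zero] at hwy
    exact hwy
  -- two singular vectors in `D a + D b`
  obtain ⟨xa, hxa, hqxa⟩ := C.exists_q a 1
  obtain ⟨xb, hxb, hqxb⟩ := C.exists_q b (-1)
  have hxa0 : xa ≠ 0 := by
    rintro rfl; rw [QuadraticMap.map_zero] at hqxa; exact zero_ne_one hqxa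
  have hab : polar Q xa xb = 0 := C.hD.orth a b (Ne.symm hb.1) xa hxa xb hxb
  have hqw : Q (xa + xb) = 0 := by rw [qadd, hqxa, hqxb, hab]; ring
  have hw : ∀ i, i ≠ a → i ≠ b → ∀ y ∈ D i, polar Q (xa + xb) y = 0 := by
    intro i hia hib y hy
    rw [pal, hcomp a xa hxa i hia y hy, hcomp b xb hxb i hib y hy, add_zero]
  obtain ⟨v₁, hv₁, hqv₁, hav₁⟩ := Good.exists_q_nonortho C.hD hG hxa hxa0
  have hwv : polar Q (xa + xb) v₁ ≠ 0 := by
    rw [pal, hcomp b xb hxb a (Ne.symm hb.1) v₁ hv₁, add_zero]; exact hav₁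
  refine comm_le_of_two C.hQ C.hn hqw (a' := (refl Q v₁ hqv₁ : V ≃ₗ[F] V) (xa + xb)) (by rw [OGrp_q, hqw]) ?_
    (fun y hy => key _ hqw hw y hy) (fun y hy => key _ (by rw [OGrp_q, hqw]) ?_ y hy)
  · rw [refl_apply, pdr, psr, pself, hqw, mul_zero, zero_sub]
    exact neg_ne_zero.2 (mul_ne_zero (mul_ne_zero (inv_ne_zero hqv₁) hwv) hwv)
  · intro i hia hib y hy
    rw [refl_apply, pdl, psl, hw i hia hib y hy, hcomp a v₁ hv₁ i hia y hy, mul_zero, sub_zero]

/-- Case I: a singular displacement. -/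
theorem _root_.Cfsg.Agent.ODec.DC.of_sub3 (C : DC Q M 2 D) (hG : ∀ i, Good Q (D i)) {b z : V} (hb : Cl M u b)
    (hbz : Cl M u (b - z)) (hz : Q z = 0) (hz0 : z ≠ 0) (hqb : Q (b - z) = Q b) (I : Finset (Fin t))
    (hIt : I.card + 3 ≤ t) (hzI : ∀ i, i ∉ I → ∀ y ∈ D i, polar Q z y = 0) {l₀ : Fin t} (hl₀ : l₀ ∉ I)
    {x₀ : V} (hx₀ : x₀ ∈ D l₀) (hbx : polar Q b x₀ ≠ 0) : commutator (OGrp Q) ≤ M := by
  have hE := hb.hasE hbz hz hqb
  obtain ⟨v, hv, hqv⟩ := sub_nonsing (hG l₀).nd (by rw [(hG l₀).dim]; omega)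
  obtain ⟨x, hx, hqx, hvx, hli, -⟩ := (hG l₀).exists_rot hv hqv
  have hqx0 : Q x ≠ 0 := by rw [hqx]; exact hqv
  have hM := C.refl_pair hv hx hqv hqx0 ⟨Q v, by rw [hqx]⟩
  have e1 : ((refl Q v hqv * refl Q x hqx0 : OGrp Q) : V ≃ₗ[F] V) z = z := by
    rw [coe_mul_apply, refl_apply_of_ortho hqx0 (hzI l₀ hl₀ x hx), refl_apply_of_ortho hqv (hzI l₀ hl₀ v hv)]
  have h1 := hE.conj hM
  rw [e1] at h1
  have h2 := hE.sub h1
  obtain ⟨s, hs⟩ : ∃ s, s = (Q b)⁻¹ • b := ⟨_, rfl⟩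
  rw [← hs] at h2
  have e2 : s - ((refl Q v hqv * refl Q x hqx0 : OGrp Q) : V ≃ₗ[F] V) s =
      ((Q v)⁻¹ * polar Q (s - ((Q x)⁻¹ * polar Q s x) • x) v) • v + ((Q x)⁻¹ * polar Q s x) • x := by
    rw [coe_mul_apply, refl_apply, refl_apply]; abel
  refine C.spread3 hG I hIt hz hz0 hzI hl₀ (y₀ := s - ((refl Q v hqv * refl Q x hqx0 : OGrp Q) : V ≃ₗ[F] V) s)
    ?_ ?_ h2
  · rw [e2]
    exact (D l₀).add_mem ((D l₀).smul_mem _ hv) ((D l₀).smul_mem _ hx)
  · rw [e2]
    intro h3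
    obtain ⟨h4, h5⟩ := hli _ _ h3
    have h6 : polar Q s x = 0 := (mul_eq_zero.1 h5).resolve_left (inv_ne_zero hqx0)
    rw [h6, mul_zero, zero_smul, sub_zero] at h4
    have h7 : polar Q s v = 0 := (mul_eq_zero.1 h4).resolve_left (inv_ne_zero hqv)
    obtain ⟨p, r, rfl⟩ := plane_span_of_li (hG l₀).dim hv hx hli x₀ hx₀
    rw [hs, psl] at h6 h7
    have h8 := (mul_eq_zero.1 h6).resolve_left (inv_ne_zero hb.q)
    have h9 := (mul_eq_zero.1 h7).resolve_left (inv_ne_zero hb.q)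
    apply hbx
    rw [par, psr, psr, h8, h9]; ring


end

end Cfsg.Agent.H95.TD
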