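import Mathlib

/-!
Arithmetic for frames of planes over a field in which `-1` is not a square.
-/

set_option autoImplicit false
set_option linter.unusedSectionVars false
set_option linter.unusedVariables false

namespace Cfsg.Agent.H95.TD

variable {F : Type*} [Field F]

theorem two_ne_zero_of {F : Type*} [Field F] (hm1 : ¬ IsSquare (-1 : F)) : (2 : F) ≠ 0 := by
  intro h
  apply hm1
  refine ⟨1, ?_⟩
  linear_combination -h

theorem sq_neg_of [Finite F] (hm1 : ¬ IsSquare (-1 : F)) {x : F} (hx : ¬ IsSquare x) : ∃ g : F, g ≠ 0 ∧ -x = g * g := by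
  have h0 : x ≠ 0 := by rintro rfl; exact hx ⟨0, by ring⟩
  haveI : Fintype F := Fintype.ofFinite F
  have h1 : IsSquare (-1 * x) := by
    classical
    have h2 : ringChar F ≠ 2 := by
      intro h
      apply two_ne_zero_of hm1
      have := ringChar.Nat.cast_ringChar (R := F)
      rw [h] at this
      exact_mod_cast this
    have e1 := (quadraticChar_neg_one_iff_not_isSquare (F := F)).2 hm1
    have e2 := (quadraticChar_neg_one_iff_not_isSquare (F := F)).2 hx
    have e3 : quadraticChar F (-1 * x) = 1 := by rw [map_mul, e1, e2]; norm_num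
    exact (quadraticChar_one_iff_isSquare (mul_ne_zero (neg_ne_zero.2 one_ne_zero) h0)).1 e3
  obtain ⟨g, hg⟩ := h1
  refine ⟨g, ?_, by rw [← hg]; ring⟩
  rintro rfl
  apply h0
  linear_combination -hg

/-- hyperbolas have the same number of points -/
theorem count_minus [Finite F] (hm1 : ¬ IsSquare (-1 : F)) {α k : F} (hα : α ≠ 0) (hk : k ≠ 0)
    (h : ∀ s r : F, s ≠ 0 → s * s - r * r = α * α → ∃ ρ, ρ ≠ 0 ∧ s * s - k = ρ * ρ) : False := by
  classical
  haveI : Fintype F := Fintype.ofFinite F
  have h2 := two_ne_zero_of hm1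
  have ha : α * α ≠ 0 := mul_ne_zero hα hα
  let P : F → Finset (F × F) := fun a => Finset.univ.filter fun x : F × F => x.1 * x.1 - x.2 * x.2 = a
  have hmem : ∀ a x, x ∈ P a ↔ x.1 * x.1 - x.2 * x.2 = a := fun a x => by simp [P]
  have hle : (P k).card ≤ (P (α * α)).card := by
    refine Finset.card_le_card_of_injOn
      (fun x => ((x.1 - x.2 + (x.1 + x.2) * (α * α / k)) / 2, ((x.1 + x.2) * (α * α / k) - (x.1 - x.2)) / 2)) ?_ ?_
    · intro x hx
      have hx' := (hmem _ _).1 hx
      change _ ∈ P (α * α)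
      rw [hmem]
      simp only
      have : (x.1 - x.2) * (x.1 + x.2) = k := by rw [← hx']; ring
      field_simp
      linear_combination (4 * (α * α) * k) * this
    · intro x _ y _ hxy
      simp only [Prod.mk.injEq] at hxy
      obtain ⟨h3, h4⟩ := hxy
      rw [div_left_inj' h2] at h3 h4
      have h5 : 2 * (x.1 - x.2 - (y.1 - y.2)) = 0 := by linear_combination h3 - h4
      have h6 : 2 * (α * α / k) * (x.1 + x.2 - (y.1 + y.2)) = 0 := by linear_combination h3 + h4
      have h7 : x.1 - x.2 - (y.1 - y.2) = 0 := (mul_eq_zero.1 h5).resolve_left h2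
      have h8 : x.1 + x.2 - (y.1 + y.2) = 0 := (mul_eq_zero.1 h6).resolve_left (mul_ne_zero h2 (div_ne_zero ha hk))
      have h9 : 2 * (x.1 - y.1) = 0 := by linear_combination h7 + h8
      have h10 : 2 * (x.2 - y.2) = 0 := by linear_combination h8 - h7
      exact Prod.ext (sub_eq_zero.1 ((mul_eq_zero.1 h9).resolve_left h2)) (sub_eq_zero.1 ((mul_eq_zero.1 h10).resolve_left h2))
  let r0 : F → F := fun s => if h : ∃ r, s * s - r * r = α * α then h.choose else 0
  have hr0 : ∀ s r, s * s - r * r = α * α → s * s - r0 s * r0 s = α * α := by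
    intro s r hsr
    have h3 : ∃ r, s * s - r * r = α * α := ⟨r, hsr⟩
    simp only [r0, dif_pos h3]
    exact h3.choose_spec
  let ρ : F → F := fun s => if h : ∃ ρ, ρ ≠ 0 ∧ s * s - k = ρ * ρ then h.choose else 0
  have hρ : ∀ s r, s * s - r * r = α * α → ρ s ≠ 0 ∧ s * s - k = ρ s * ρ s := by
    intro s r hsr
    have hs : s ≠ 0 := by
      rintro rfl
      apply hm1
      have hr : r ≠ 0 := by rintro rfl; apply ha; linear_combination -hsr
      refine ⟨α / r, ?_⟩
      field_simp
      linear_combination hsr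
    have h3 := h s r hs hsr
    simp only [ρ, dif_pos h3]
    exact h3.choose_spec
  let f : F × F → F × F := fun x => (x.1, if x.2 = r0 x.1 then ρ x.1 else -ρ x.1)
  have hf : ∀ x ∈ P (α * α), f x ∈ P k := by
    intro x hx
    have hx' := (hmem _ _).1 hx
    rw [hmem]
    have h3 := (hρ _ _ hx').2
    simp only [f]
    split_ifs
    · linear_combination h3
    · linear_combination h3
  have hinj : Set.InjOn f (P (α * α)) := by
    intro x hx y hy hxy
    have hx' := (hmem _ _).1 hx
    have hy' := (hmem _ _).1 hy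
    simp only [f, Prod.mk.injEq] at hxy
    obtain ⟨h3, h4⟩ := hxy
    have hρ0 := (hρ _ _ hx').1
    rw [← h3] at h4 hy'
    have h5 := hr0 _ _ hx'
    have key : ∀ z : F, x.1 * x.1 - z * z = α * α → z = r0 x.1 ∨ z = -r0 x.1 := by
      intro z hz
      have : (z - r0 x.1) * (z + r0 x.1) = 0 := by linear_combination h5 - hz
      rcases mul_eq_zero.1 this with h | h
      · exact Or.inl (sub_eq_zero.1 h)
      · exact Or.inr (eq_neg_of_add_eq_zero_left h)
    have hne : ρ x.1 ≠ -ρ x.1 := by
      intro h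
      have : 2 * ρ x.1 = 0 := by linear_combination h
      exact hρ0 ((mul_eq_zero.1 this).resolve_left h2)
    refine Prod.ext h3 ?_
    by_cases hxr : x.2 = r0 x.1
    · by_cases hyr : y.2 = r0 x.1
      · rw [hxr, hyr]
      · rw [if_pos hxr, if_neg hyr] at h4
        exact absurd h4 hne
    · by_cases hyr : y.2 = r0 x.1
      · rw [if_neg hxr, if_pos hyr] at h4
        exact absurd h4.symm hne
      · rcases key _ hx' with h | h
        · exact absurd h hxr
        rcases key _ hy' with h' | h'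
        · exact absurd h' hyr
        rw [h, h']
  have hα0 : α * α - 0 * 0 = α * α := by ring
  have hρα := hρ α 0 hα0
  have hnot : (α, -ρ α) ∉ (P (α * α)).image f := by
    intro h3
    obtain ⟨x, hx, hfx⟩ := Finset.mem_image.1 h3
    have hx' := (hmem _ _).1 hx
    simp only [f, Prod.mk.injEq] at hfx
    obtain ⟨h4, h5⟩ := hfx
    rw [h4] at h5 hx'
    have h6 : x.2 * x.2 = 0 := by linear_combination -hx'
    have h7 : r0 α * r0 α = 0 := by linear_combination -(hr0 α 0 hα0)
    rw [mul_self_eq_zero.1 h6, mul_self_eq_zero.1 h7, if_pos rfl] at h5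
    have : 2 * ρ α = 0 := by linear_combination h5
    exact hρα.1 ((mul_eq_zero.1 this).resolve_left h2)
  have hsub : insert (α, -ρ α) ((P (α * α)).image f) ⊆ P k := by
    intro x hx
    rw [Finset.mem_insert] at hx
    rcases hx with rfl | hx
    · rw [hmem]; simp only; linear_combination hρα.2
    · obtain ⟨y, hy, rfl⟩ := Finset.mem_image.1 hx
      exact hf y hy
  have h3 := Finset.card_le_card hsub
  rw [Finset.card_insert_of_notMem hnot, Finset.card_image_of_injOn hinj] at h3
  omega

theorem exists_hyp0 [Finite F] (h2 : (2 : F) ≠ 0) (hq : 3 < Nat.card F) : ∃ p : F, p ≠ 0 ∧ p ≠ 1 ∧ p ≠ -1 := by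
  classical
  haveI : Fintype F := Fintype.ofFinite F
  by_contra hcon
  push Not at hcon
  have h1 : (Finset.univ : Finset F) ⊆ {0, 1, -1} := by
    intro p _
    simp only [Finset.mem_insert, Finset.mem_singleton]
    by_cases h0 : p = 0
    · exact Or.inl h0
    by_cases h1 : p = 1
    · exact Or.inr (Or.inl h1)
    exact Or.inr (Or.inr (hcon p h0 h1))
  have h3 := (Finset.card_le_card h1).trans Finset.card_le_three
  rw [Finset.card_univ, ← Nat.card_eq_fintype_card] at h3
  omega

theorem hyp_p (h2 : (2 : F) ≠ 0) {p : F} (h0 : p ≠ 0) (h1 : p ≠ 1) (hm : p ≠ -1) :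
    (p - p⁻¹) / 2 ≠ 0 ∧ (p + p⁻¹) / 2 * ((p + p⁻¹) / 2) - 1 = (p - p⁻¹) / 2 * ((p - p⁻¹) / 2) := by
  constructor
  · intro h
    have h3 : p - p⁻¹ = 0 := (div_eq_zero_iff.1 h).resolve_right h2
    have h4 : p * p = 1 := by
      have : p * (p - p⁻¹) = 0 := by rw [h3, mul_zero]
      rw [mul_sub, mul_inv_cancel₀ h0] at this
      exact sub_eq_zero.1 this
    rcases mul_self_eq_one_iff.1 h4 with h | h
    · exact h1 h
    · exact hm h
  · field_simp
    ring

theorem exists_hyp [Finite F] (h2 : (2 : F) ≠ 0) (hq : 7 < Nat.card F) (κ : F) :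
    ∃ Y s : F, s ≠ 0 ∧ Y * Y - 1 = s * s ∧ Y * Y ≠ κ := by
  classical
  haveI : Fintype F := Fintype.ofFinite F
  by_contra hcon
  push Not at hcon
  have key : ∀ p : F, p ≠ 0 → p ≠ 1 → p ≠ -1 → (p + p⁻¹) * (p + p⁻¹) = 4 * κ := by
    intro p h0 h1 hm
    obtain ⟨h3, h4⟩ := hyp_p h2 h0 h1 hm
    have h5 := hcon _ _ h3 h4
    rw [← h5]
    field_simp
    ring
  obtain ⟨p0, h00, h01, h0m⟩ := exists_hyp0 h2 (by omega : 3 < Nat.card F)
  have k0 := key p0 h00 h01 h0m
  have h1 : (Finset.univ : Finset F) ⊆ {0, 1, -1} ∪ ({p0, -p0, p0⁻¹, -p0⁻¹} : Finset F) := by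
    intro p _
    simp only [Finset.mem_insert, Finset.mem_singleton, Finset.mem_union]
    by_cases h0 : p = 0
    · exact Or.inl (Or.inl h0)
    by_cases h1 : p = 1
    · exact Or.inl (Or.inr (Or.inl h1))
    by_cases hm : p = -1
    · exact Or.inl (Or.inr (Or.inr hm))
    right
    have kp := key p h0 h1 hm
    have h3 : ((p + p⁻¹) - (p0 + p0⁻¹)) * ((p + p⁻¹) + (p0 + p0⁻¹)) = 0 := by linear_combination kp - k0
    rcases mul_eq_zero.1 h3 with h | h
    · have h4 : (p - p0) * (p - p0⁻¹) = 0 := by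
        have : (p - p0) * (p - p0⁻¹) = p * ((p + p⁻¹) - (p0 + p0⁻¹)) := by
          field_simp
          ring
        rw [this, h, mul_zero]
      rcases mul_eq_zero.1 h4 with h5 | h5
      · exact Or.inl (sub_eq_zero.1 h5)
      · exact Or.inr (Or.inr (Or.inl (sub_eq_zero.1 h5)))
    · have h4 : (p + p0) * (p + p0⁻¹) = 0 := by
        have : (p + p0) * (p + p0⁻¹) = p * ((p + p⁻¹) + (p0 + p0⁻¹)) := by
          field_simp
          ring
        rw [this, h, mul_zero]
      rcases mul_eq_zero.1 h4 with h5 | h5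
      · exact Or.inr (Or.inl (eq_neg_of_add_eq_zero_left h5))
      · exact Or.inr (Or.inr (Or.inr (eq_neg_of_add_eq_zero_left h5)))
  have h3 := (Finset.card_le_card h1).trans (Finset.card_union_le _ _)
  have h4 : ({0, 1, -1} : Finset F).card ≤ 3 := Finset.card_le_three
  have h5 : ({p0, -p0, p0⁻¹, -p0⁻¹} : Finset F).card ≤ 4 := Finset.card_le_four
  rw [Finset.card_univ, ← Nat.card_eq_fintype_card] at h3
  omega

/-- circle against hyperbola -/
theorem count_plus [Finite F] (hm1 : ¬ IsSquare (-1 : F)) {m : F} (hm : m ≠ 0)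
    (h : ∀ Y s : F, s ≠ 0 → Y * Y - 1 = s * s → ∃ ρ, ρ ≠ 0 ∧ m * m - Y * Y = ρ * ρ) {Y₀ ρ₀ : F} (hY₀ : Y₀ ≠ 0)
    (hρ₀ : ρ₀ ≠ 0) (h₀ : m * m - Y₀ * Y₀ = ρ₀ * ρ₀) : ∃ s, s ≠ 0 ∧ Y₀ * Y₀ - 1 = s * s := by
  classical
  haveI : Fintype F := Fintype.ofFinite F
  have h2 := two_ne_zero_of hm1
  by_contra hcon
  push Not at hcon
  let P₂ : Finset (F × F) := Finset.univ.filter fun x : F × F => x.1 * x.1 + x.2 * x.2 = m * m
  have hmem : ∀ x, x ∈ P₂ ↔ x.1 * x.1 + x.2 * x.2 = m * m := fun x => by simp [P₂]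
  -- upper bound for the circle
  have hup : P₂.card ≤ Nat.card F + 1 := by
    have h3 : P₂.card ≤ (Finset.univ : Finset (Option F)).card := by
      refine Finset.card_le_card_of_injOn (fun x => if x.1 = -m then none else some (x.2 / (x.1 + m)))
        (fun _ _ => Finset.mem_coe.2 (Finset.mem_univ _)) ?_
      intro x hx y hy hxy
      have hx' := (hmem x).1 hx
      have hy' := (hmem y).1 hy
      simp only at hxy
      have hz : ∀ z : F × F, z.1 * z.1 + z.2 * z.2 = m * m → z.1 = -m → z.2 = 0 := by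
        intro z hz h
        rw [h] at hz
        exact mul_self_eq_zero.1 (by linear_combination hz)
      by_cases hxm : x.1 = -m
      · by_cases hym : y.1 = -m
        · exact Prod.ext (by rw [hxm, hym]) (by rw [hz x hx' hxm, hz y hy' hym])
        · rw [if_pos hxm, if_neg hym] at hxy
          exact absurd hxy (by simp)
      · by_cases hym : y.1 = -m
        · rw [if_neg hxm, if_pos hym] at hxy
          exact absurd hxy (by simp)
        · rw [if_neg hxm, if_neg hym, Option.some_inj] at hxy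
          obtain ⟨τ, hτ⟩ : ∃ τ, τ = x.2 / (x.1 + m) := ⟨_, rfl⟩
          have hτy : τ = y.2 / (y.1 + m) := by rw [hτ, hxy]
          have hx0 : x.1 + m ≠ 0 := fun h => hxm (eq_neg_of_add_eq_zero_left h)
          have hy0 : y.1 + m ≠ 0 := fun h => hym (eq_neg_of_add_eq_zero_left h)
          have hx2 : x.2 = τ * (x.1 + m) := by rw [hτ]; field_simp
          have hy2 : y.2 = τ * (y.1 + m) := by rw [hτy]; field_simp
          have hτ1 : 1 + τ * τ ≠ 0 := by
            intro h3
            exact hm1 ⟨τ, by linear_combination -h3⟩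
          have ex : x.1 * (1 + τ * τ) = m * (1 - τ * τ) := by
            have h4 : (x.1 + m) * (x.1 * (1 + τ * τ) - m * (1 - τ * τ)) = 0 := by
              rw [hx2] at hx'
              linear_combination hx'
            exact sub_eq_zero.1 ((mul_eq_zero.1 h4).resolve_left hx0)
          have ey : y.1 * (1 + τ * τ) = m * (1 - τ * τ) := by
            have h4 : (y.1 + m) * (y.1 * (1 + τ * τ) - m * (1 - τ * τ)) = 0 := by
              rw [hy2] at hy'
              linear_combination hy'
            exact sub_eq_zero.1 ((mul_eq_zero.1 h4).resolve_left hy0)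
          have e1 : x.1 = y.1 := mul_right_cancel₀ hτ1 (by rw [ex, ey])
          exact Prod.ext e1 (by rw [hx2, hy2, e1])
    rw [Finset.card_univ, Fintype.card_option, ← Nat.card_eq_fintype_card] at h3
    exact h3
  -- points of the hyperbola
  let T : Finset F := ((Finset.univ.erase 0).erase 1).erase (-1)
  have hT : Nat.card F ≤ T.card + 3 := by
    have e1 := Finset.pred_card_le_card_erase (s := (Finset.univ : Finset F)) (a := 0)
    have e2 := Finset.pred_card_le_card_erase (s := (Finset.univ : Finset F).erase 0) (a := 1)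
    have e3 := Finset.pred_card_le_card_erase (s := ((Finset.univ : Finset F).erase 0).erase 1) (a := -1)
    rw [Finset.card_univ, ← Nat.card_eq_fintype_card] at e1
    change Nat.card F ≤ (((Finset.univ.erase 0).erase 1).erase (-1) : Finset F).card + 3
    omega
  have hTm : ∀ p ∈ T, p ≠ 0 ∧ p ≠ 1 ∧ p ≠ -1 := by
    intro p hp
    simp only [T, Finset.mem_erase] at hp
    exact ⟨hp.2.2.1, hp.2.1, hp.1⟩
  let ρ : F → F := fun Y => if h : ∃ ρ, ρ ≠ 0 ∧ m * m - Y * Y = ρ * ρ then h.choose else 0
  have hρ : ∀ Y s : F, s ≠ 0 → Y * Y - 1 = s * s → ρ Y ≠ 0 ∧ m * m - Y * Y = ρ Y * ρ Y := by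
    intro Y s hs hY
    have h3 := h Y s hs hY
    simp only [ρ, dif_pos h3]
    exact h3.choose_spec
  let s0 : F → F := fun Y => if h : ∃ s, Y * Y - 1 = s * s then h.choose else 0
  have hs0 : ∀ Y s, Y * Y - 1 = s * s → Y * Y - 1 = s0 Y * s0 Y := by
    intro Y s hY
    have h3 : ∃ s, Y * Y - 1 = s * s := ⟨s, hY⟩
    simp only [s0, dif_pos h3]
    exact h3.choose_spec
  let Yp : F → F := fun p => (p + p⁻¹) / 2
  let sp : F → F := fun p => (p - p⁻¹) / 2
  let f : F → F × F := fun p => (Yp p, if sp p = s0 (Yp p) then ρ (Yp p) else -ρ (Yp p))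
  have hp1 : ∀ p ∈ T, sp p ≠ 0 ∧ Yp p * Yp p - 1 = sp p * sp p := fun p hp =>
    hyp_p h2 (hTm p hp).1 (hTm p hp).2.1 (hTm p hp).2.2
  have hρp : ∀ p ∈ T, ρ (Yp p) ≠ 0 ∧ m * m - Yp p * Yp p = ρ (Yp p) * ρ (Yp p) := fun p hp =>
    hρ _ _ (hp1 p hp).1 (hp1 p hp).2
  have hf : ∀ p ∈ T, f p ∈ P₂ := by
    intro p hp
    rw [hmem]
    have h3 := (hρp p hp).2
    simp only [f]
    split_ifs
    · linear_combination -h3
    · linear_combination -h3
  have hpY : ∀ p : F, Yp p + sp p = p := by
    intro p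
    simp only [Yp, sp]
    rw [← add_div]
    have : p + p⁻¹ + (p - p⁻¹) = 2 * p := by ring
    rw [this, mul_div_cancel_left₀ _ h2]
  have hinj : Set.InjOn f T := by
    intro x hx y hy hxy
    simp only [f, Prod.mk.injEq] at hxy
    obtain ⟨h3, h4⟩ := hxy
    obtain ⟨hx0, hx1⟩ := hp1 x hx
    obtain ⟨hy0, hy1⟩ := hp1 y hy
    have hρ0 := (hρp x hx).1
    rw [← h3] at h4 hy1
    have h5 := hs0 _ _ hx1
    have key : ∀ z : F, Yp x * Yp x - 1 = z * z → z = s0 (Yp x) ∨ z = -s0 (Yp x) := by
      intro z hz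
      have : (z - s0 (Yp x)) * (z + s0 (Yp x)) = 0 := by linear_combination h5 - hz
      rcases mul_eq_zero.1 this with h | h
      · exact Or.inl (sub_eq_zero.1 h)
      · exact Or.inr (eq_neg_of_add_eq_zero_left h)
    have hne : ρ (Yp x) ≠ -ρ (Yp x) := by
      intro h
      have : 2 * ρ (Yp x) = 0 := by linear_combination h
      exact hρ0 ((mul_eq_zero.1 this).resolve_left h2)
    have h6 : sp x = sp y := by
      by_cases hxr : sp x = s0 (Yp x)
      · by_cases hyr : sp y = s0 (Yp x)
        · rw [hxr, hyr]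
        · rw [if_pos hxr, if_neg hyr] at h4
          exact absurd h4 hne
      · by_cases hyr : sp y = s0 (Yp x)
        · rw [if_neg hxr, if_pos hyr] at h4
          exact absurd h4.symm hne
        · rcases key _ hx1 with h | h
          · exact absurd h hxr
          rcases key _ hy1 with h' | h'
          · exact absurd h' hyr
          rw [h, h']
    rw [← hpY x, ← hpY y, h3, h6]
  -- five points off the image
  let E : Finset (F × F) := {(m, 0), (-m, 0), (0, m), (0, -m), (Y₀, ρ₀)}
  have hmm : m ≠ -m := by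
    intro h
    have : 2 * m = 0 := by linear_combination h
    exact hm ((mul_eq_zero.1 this).resolve_left h2)
  have hE : E.card = 5 := by
    have hm0 : (0 : F) ≠ m := Ne.symm hm
    have hnm0 : (0 : F) ≠ -m := Ne.symm (neg_ne_zero.2 hm)
    simp only [E]
    rw [Finset.card_insert_of_notMem, Finset.card_insert_of_notMem, Finset.card_insert_of_notMem,
      Finset.card_insert_of_notMem, Finset.card_singleton]
    · simp [hY₀.symm]
    · simp [hmm, hY₀.symm]
    · simp [hm, hρ₀.symm]
    · simp [hmm, hm, hρ₀.symm]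
  have hEP : ∀ x ∈ E, x ∈ P₂ := by
    intro x hx
    rw [hmem]
    simp only [E, Finset.mem_insert, Finset.mem_singleton] at hx
    rcases hx with rfl | rfl | rfl | rfl | rfl
    · simp
    · simp
    · simp
    · simp
    · simp only; linear_combination -h₀
  have hdisj : Disjoint E (T.image f) := by
    rw [Finset.disjoint_left]
    intro x hx hx'
    obtain ⟨p, hp, rfl⟩ := Finset.mem_image.1 hx'
    obtain ⟨hp0, hpp⟩ := hp1 p hp
    have hρ0 := (hρp p hp).1
    have hfne : (f p).2 ≠ 0 := by
      simp only [f]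
      split_ifs
      · exact hρ0
      · exact neg_ne_zero.2 hρ0
    have hf1 : (f p).1 = Yp p := rfl
    have hYp0 : Yp p ≠ 0 := by
      intro h3
      rw [h3] at hpp
      exact hm1 ⟨sp p, by linear_combination hpp⟩
    simp only [E, Finset.mem_insert, Finset.mem_singleton] at hx
    rcases hx with hx | hx | hx | hx | hx
    · apply hfne; rw [hx]
    · apply hfne; rw [hx]
    · apply hYp0; rw [← hf1, hx]
    · apply hYp0; rw [← hf1, hx]
    · have : Yp p = Y₀ := by rw [← hf1, hx]
      exact hcon (sp p) hp0 (by rw [← this]; exact hpp)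
  have h3 : (E ∪ T.image f).card ≤ P₂.card := by
    refine Finset.card_le_card fun x hx => ?_
    rcases Finset.mem_union.1 hx with h | h
    · exact hEP x h
    · obtain ⟨p, hp, rfl⟩ := Finset.mem_image.1 h
      exact hf p hp
  rw [Finset.card_union_of_disjoint hdisj, hE, Finset.card_image_of_injOn hinj] at h3
  omega

end Cfsg.Agent.H95.TD
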