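import Cfsg.Agent.H95.TD2

/-!
The norms of the components of a vector of full support: an impossible configuration.
-/

set_option autoImplicit false
set_option linter.unusedSectionVars false
set_option linter.unusedVariables false

namespace Cfsg.Agent.H95.TD

variable {F : Type*} [Field F]

/-- the new coordinates -/
noncomputable def nx {t : ℕ} (n : Fin t → F) (l : Fin t) (s : F) : Fin t → F :=
  fun j => if j = l then 1 - (1 - n l) * (4 * n l * n l / (s * s)) else 4 * n l * n l / (s * s) * n j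

theorem nx_self {t : ℕ} (n : Fin t → F) (l : Fin t) (s : F) :
    nx n l s l = 1 - (1 - n l) * (4 * n l * n l / (s * s)) := by
  unfold nx; rw [if_pos rfl]

theorem nx_ne {t : ℕ} (n : Fin t → F) {l j : Fin t} (h : j ≠ l) (s : F) :
    nx n l s j = 4 * n l * n l / (s * s) * n j := by
  unfold nx; rw [if_neg h]

structure Sys {t : ℕ} (S : (Fin t → F) → Prop) : Prop where
  sum : ∀ n, S n → ∑ l, n l = 1
  ne : ∀ n, S n → ∀ l, n l ≠ 0
  tr : ∀ n, S n → ∀ l y s, s ≠ 0 → n l + y * y = s * s → S (nx n l s)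
  sq : ∀ n, S n → ∀ l y s, s ≠ 0 → n l + y * y = s * s → IsSquare (nx n l s l * n l)

theorem contra_sq [Finite F] (hm1 : ¬ IsSquare (-1 : F)) {t : ℕ} (ht : t = 5 ∨ t = 6) {S : (Fin t → F) → Prop}
    (hS : Sys S) {n : Fin t → F} (hn : S n) (hsq : ∀ l, IsSquare (n l)) : False := by
  have h2 := two_ne_zero_of hm1
  have h1 : ∀ l, n l = 1 := by
    intro l
    by_contra hl
    obtain ⟨α, hα⟩ := hsq l
    have hn0 := hS.ne n hn l
    have hα0 : α ≠ 0 := by rintro rfl; apply hn0; rw [hα]; ring
    have h4 : (4 : F) ≠ 0 := by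
      have : (4 : F) = 2 * 2 := by norm_num
      rw [this]; exact mul_ne_zero h2 h2
    refine count_minus hm1 hα0 (k := 4 * n l * n l * (1 - n l)) ?_ ?_
    · exact mul_ne_zero (mul_ne_zero (mul_ne_zero h4 hn0) hn0) (sub_ne_zero.2 (Ne.symm hl))
    · intro s r hs hsr
      have hsr' : n l + r * r = s * s := by rw [hα]; linear_combination -hsr
      have hne := hS.ne _ (hS.tr n hn l r s hs hsr') l
      obtain ⟨ρ₀, hρ₀⟩ := hS.sq n hn l r s hs hsr'
      have e1 : s * s - 4 * n l * n l * (1 - n l) = s * s * nx n l s l := by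
        rw [nx_self]; field_simp
      have e2 : nx n l s l = (ρ₀ / α) * (ρ₀ / α) := by
        have : nx n l s l * (α * α) = ρ₀ * ρ₀ := by rw [← hρ₀, ← hα]
        field_simp
        linear_combination this
      refine ⟨s * (ρ₀ / α), ?_, ?_⟩
      · intro h
        have h3 : ρ₀ / α = 0 := (mul_eq_zero.1 h).resolve_left hs
        apply hne
        rw [e2, h3]; ring
      · rw [e1, e2]; ring
  have h3 := hS.sum n hn
  rw [Finset.sum_congr rfl fun l _ => h1 l, Finset.sum_const, Finset.card_univ, Fintype.card_fin, nsmul_eq_mul,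
    mul_one] at h3
  rcases ht with rfl | rfl
  · push_cast at h3
    have : (2 : F) * 2 = 0 := by linear_combination h3
    rcases mul_eq_zero.1 this with h | h <;> exact h2 h
  · push_cast at h3
    exact hm1 ⟨2, by linear_combination -h3⟩

section ns
variable [Finite F] {t : ℕ} {S : (Fin t → F) → Prop}

/-- forward implication -/
theorem fwd (hm1 : ¬ IsSquare (-1 : F)) (hS : Sys S) (hns : ∀ n, S n → ∀ l, ¬ IsSquare (n l)) {n : Fin t → F} (hn : S n)
    (l : Fin t) {Y s : F} (hs : s ≠ 0) (hY : Y * Y - 1 = s * s) :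
    ∃ ρ, ρ ≠ 0 ∧ (1 - 2 * n l) * (1 - 2 * n l) - Y * Y = ρ * ρ := by
  have h2 := two_ne_zero_of hm1
  obtain ⟨g, hg0, hg⟩ := sq_neg_of hm1 (hns n hn l)
  have hn' : n l = -(g * g) := by rw [← hg]; ring
  have hgs : g * s ≠ 0 := mul_ne_zero hg0 hs
  have htr : n l + (g * Y) * (g * Y) = (g * s) * (g * s) := by rw [hn']; linear_combination (g * g) * hY
  have h3 := hns _ (hS.tr n hn l (g * Y) (g * s) hgs htr) l
  obtain ⟨ρ₀, hρ₀, hρ⟩ := sq_neg_of hm1 h3
  refine ⟨ρ₀ * s, mul_ne_zero hρ₀ hs, ?_⟩
  have e1 : -(nx n l (g * s) l) * (s * s) = (1 - 2 * n l) * (1 - 2 * n l) - Y * Y := by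
    rw [nx_self, hn']
    field_simp
    linear_combination hY
  rw [← e1, hρ]; ring

theorem m_ne (hm1 : ¬ IsSquare (-1 : F)) (h7 : 7 ≤ Nat.card F) (hS : Sys S)
    (hns : ∀ n, S n → ∀ l, ¬ IsSquare (n l)) {n : Fin t → F} (hn : S n) (l : Fin t) : 1 - 2 * n l ≠ 0 := by
  intro h0
  have h2 := two_ne_zero_of hm1
  obtain ⟨p, hp0, hp1, hpm⟩ := exists_hyp0 h2 (by omega : 3 < Nat.card F)
  obtain ⟨hs, hY⟩ := hyp_p h2 hp0 hp1 hpm
  obtain ⟨ρ, hρ0, hρ⟩ := fwd hm1 hS hns hn l hs hY
  rw [h0] at hρ
  have hY0 : (p + p⁻¹) / 2 ≠ 0 := by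
    intro h
    rw [h] at hρ
    apply hρ0
    exact mul_self_eq_zero.1 (by linear_combination -hρ)
  apply hm1
  refine ⟨ρ / ((p + p⁻¹) / 2), ?_⟩
  rw [div_mul_div_comm, eq_div_iff (mul_ne_zero hY0 hY0)]
  linear_combination hρ

theorem not_m1 (hm1 : ¬ IsSquare (-1 : F)) (h7 : 7 ≤ Nat.card F) (hS : Sys S)
    (hns : ∀ n, S n → ∀ l, ¬ IsSquare (n l)) {n : Fin t → F} (hn : S n) (l : Fin t) {ρ : F} (hρ : ρ ≠ 0)
    (h : (1 - 2 * n l) * (1 - 2 * n l) - 1 = ρ * ρ) : False := by
  obtain ⟨s, hs, h3⟩ := count_plus hm1 (m_ne hm1 h7 hS hns hn l) (fun Y s hs hY => fwd hm1 hS hns hn l hs hY)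
    (Y₀ := 1) (ρ₀ := ρ) one_ne_zero hρ (by rw [mul_one]; exact h)
  apply hs
  exact mul_self_eq_zero.1 (by linear_combination -h3)

/-- any two coordinates are equal or complementary -/
theorem dich (hm1 : ¬ IsSquare (-1 : F)) (h7 : 7 ≤ Nat.card F) (hS : Sys S)
    (hns : ∀ n, S n → ∀ l, ¬ IsSquare (n l)) {n n' : Fin t → F} (hn : S n) (hn' : S n') (l l' : Fin t) :
    n l = n' l' ∨ n l + n' l' = 1 := by
  have h2 := two_ne_zero_of hm1
  have key : ∀ {n n' : Fin t → F} (hn : S n) (hn' : S n') (l l' : Fin t) (ρ : F), ρ ≠ 0 →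
      (1 - 2 * n l) * (1 - 2 * n l) - (1 - 2 * n' l') * (1 - 2 * n' l') = ρ * ρ → False := by
    intro n n' hn hn' l l' ρ hρ h
    obtain ⟨s, hs, h3⟩ := count_plus hm1 (m_ne hm1 h7 hS hns hn l) (fun Y s hs hY => fwd hm1 hS hns hn l hs hY)
      (m_ne hm1 h7 hS hns hn' l') hρ h
    exact not_m1 hm1 h7 hS hns hn' l' hs h3
  have h0 : (1 - 2 * n l) * (1 - 2 * n l) - (1 - 2 * n' l') * (1 - 2 * n' l') = 0 := by
    by_contra hne
    by_cases hsq : IsSquare ((1 - 2 * n l) * (1 - 2 * n l) - (1 - 2 * n' l') * (1 - 2 * n' l'))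
    · obtain ⟨ρ, hρ⟩ := hsq
      refine key hn hn' l l' ρ ?_ hρ
      rintro rfl
      exact hne (by rw [hρ]; ring)
    · obtain ⟨g, hg0, hg⟩ := sq_neg_of hm1 hsq
      exact key hn' hn l' l g hg0 (by rw [← hg]; ring)
  have h4 : (2 * 2) * ((n' l' - n l) * (1 - n l - n' l')) = 0 := by linear_combination h0
  have h5 := (mul_eq_zero.1 h4).resolve_left (mul_ne_zero h2 h2)
  rcases mul_eq_zero.1 h5 with h | h
  · left; exact (sub_eq_zero.1 h).symm
  · right; linear_combination -h

theorem contra_ns (hm1 : ¬ IsSquare (-1 : F)) (h7 : 7 ≤ Nat.card F) (ht : t = 5 ∨ t = 6) (hS : Sys S)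
    (hns : ∀ n, S n → ∀ l, ¬ IsSquare (n l)) {n : Fin t → F} (hn : S n) : False := by
  have h2 := two_ne_zero_of hm1
  by_cases h8 : 7 < Nat.card F
  · -- two equal coordinates
    have hd := fun l l' => dich hm1 h7 hS hns hn hn l l'
    obtain ⟨j, l, hjl, he⟩ : ∃ j l : Fin t, j ≠ l ∧ n j = n l := by
      have h0 : 0 < t := by omega
      have h1 : 1 < t := by omega
      have h3 : 2 < t := by omega
      rcases hd ⟨0, h0⟩ ⟨1, h1⟩ with h | h
      · exact ⟨_, _, by simp, h⟩
      rcases hd ⟨0, h0⟩ ⟨2, h3⟩ with h' | h'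
      · exact ⟨_, _, by simp, h'⟩
      exact ⟨⟨1, h1⟩, ⟨2, h3⟩, by simp, by linear_combination h - h'⟩
    obtain ⟨g, hg0, hg⟩ := sq_neg_of hm1 (hns n hn l)
    have hn' : n l = -(g * g) := by rw [← hg]; ring
    obtain ⟨Y, s, hs, hY, hκ⟩ := exists_hyp h2 h8 (1 - 4 * n l)
    have hgs : g * s ≠ 0 := mul_ne_zero hg0 hs
    have htr : n l + (g * Y) * (g * Y) = (g * s) * (g * s) := by rw [hn']; linear_combination (g * g) * hY
    have hS' := hS.tr n hn l (g * Y) (g * s) hgs htr
    obtain ⟨Φ, hΦ⟩ : ∃ Φ, Φ = 4 * n l * n l / (g * s * (g * s)) := ⟨_, rfl⟩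
    have hΦ' : Φ * (s * s) = -(4 * n l) := by
      rw [hΦ, hn']; field_simp
    have hΦ1 : Φ ≠ 1 := by
      rintro h
      apply hκ
      rw [h, one_mul] at hΦ'
      linear_combination hY + hΦ'
    have hn0 := hS.ne n hn l
    have ej : nx n l (g * s) j = Φ * n l := by rw [nx_ne n hjl, ← hΦ, he]
    have el : nx n l (g * s) l = 1 - (1 - n l) * Φ := by rw [nx_self, ← hΦ]
    have d1 := dich hm1 h7 hS hns hS' hn j l
    have d2 := dich hm1 h7 hS hns hS' hn l l
    rw [ej] at d1
    rw [el] at d2
    have hΦn : Φ * n l + n l = 1 := by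
      rcases d1 with h | h
      · exfalso
        apply hΦ1
        exact mul_right_cancel₀ hn0 (by rw [one_mul]; exact h)
      · exact h
    rcases d2 with h | h
    · have h3 : (1 - n l) * (1 - Φ) = 0 := by linear_combination h
      rcases mul_eq_zero.1 h3 with h4 | h4
      · exact hns n hn l ⟨1, by linear_combination -h4⟩
      · exact hΦ1 (sub_eq_zero.1 h4).symm
    · have h3 : 1 - 2 * n l = 0 := by
        have h5 : n l = (1 - n l) * Φ := by linear_combination h
        have h6 : 1 - n l = Φ * n l := by linear_combination -hΦn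
        linear_combination h6 * (1 - n l) - n l * h5
      exact m_ne hm1 h7 hS hns hn l h3
  · -- seven elements
    have h7' : Nat.card F = 7 := by omega
    have hz : (7 : F) = 0 := by
      haveI : Fintype F := Fintype.ofFinite F
      have := FiniteField.cast_card_eq_zero F
      rw [← Nat.card_eq_fintype_card, h7'] at this
      exact_mod_cast this
    have h30 : (3 : F) ≠ 0 := by
      intro h
      have : (1 : F) = 0 := by linear_combination hz - 2 * h
      exact one_ne_zero this
    haveI : Fintype F := Fintype.ofFinite F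
    -- coordinates are 3 or 5
    have hval : ∀ n, S n → ∀ l, n l = 3 ∨ n l = 5 := by
      intro n hn l
      have hn0 := hS.ne n hn l
      have hq : n l ^ 7 = n l := by
        have := FiniteField.pow_card (n l)
        rwa [← Nat.card_eq_fintype_card, h7'] at this
      have h6 : (n l ^ 3 - 1) * (n l ^ 3 + 1) = 0 := by
        have : n l * ((n l ^ 3 - 1) * (n l ^ 3 + 1)) = 0 := by linear_combination hq
        exact (mul_eq_zero.1 this).resolve_left hn0
      rcases mul_eq_zero.1 h6 with h | h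
      · exfalso
        apply hns n hn l
        exact ⟨n l * n l, by linear_combination (-(n l)) * h⟩
      · have h8 : (n l + 1) * ((n l - 3) * (n l - 5)) = 0 := by
          linear_combination h + (2 - n l * n l + n l) * hz
        rcases mul_eq_zero.1 h8 with h | h
        · exfalso
          refine not_m1 hm1 h7 hS hns hn l (ρ := 1) one_ne_zero ?_
          have : n l = -1 := eq_neg_of_add_eq_zero_left h
          rw [this]
          linear_combination hz
        · rcases mul_eq_zero.1 h with h | h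
          · exact Or.inl (sub_eq_zero.1 h)
          · exact Or.inr (sub_eq_zero.1 h)
    have h33 : ∀ j l : Fin t, j ≠ l → n l = 3 → n j = 3 → False := by
      intro j l hjl hl hj
      have h9 := hS.tr n hn l 1 2 h2 (by rw [hl]; norm_num)
      have e1 : nx n l 2 j = 27 := by
        rw [nx_ne n hjl, hl, hj]
        have h4 : (2 : F) * 2 ≠ 0 := mul_ne_zero h2 h2
        field_simp
        norm_num
      rcases hval _ h9 j with h | h
      · rw [e1] at h
        have : (1 : F) = 0 := by linear_combination (-2 : F) * h + 7 * hz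
        exact one_ne_zero this
      · rw [e1] at h
        have : (1 : F) = 0 := by linear_combination h - 3 * hz
        exact one_ne_zero this
    have hsum := hS.sum n hn
    by_cases h3 : ∃ l, n l = 3
    · obtain ⟨l, hl⟩ := h3
      rw [← Finset.add_sum_erase _ _ (Finset.mem_univ l), hl, Finset.sum_congr rfl (g := fun _ => (5 : F)) (by
        intro j hj
        have hjl := Finset.ne_of_mem_erase hj
        rcases hval n hn j with h | h
        · exact absurd h fun h => h33 j l hjl hl h
        · exact h), Finset.sum_const, Finset.card_erase_of_mem (Finset.mem_univ l), Finset.card_univ,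
        Fintype.card_fin, nsmul_eq_mul] at hsum
      rcases ht with rfl | rfl
      · norm_num at hsum
        have : (1 : F) = 0 := by linear_combination hsum - 3 * hz
        exact one_ne_zero this
      · norm_num at hsum
        have : (1 : F) = 0 := by linear_combination (-1 : F) * hsum + 4 * hz
        exact one_ne_zero this
    · push Not at h3
      rw [Finset.sum_congr rfl (g := fun _ => (5 : F)) (by
        intro j _
        rcases hval n hn j with h | h
        · exact absurd h (h3 j)
        · exact h), Finset.sum_const, Finset.card_univ, Fintype.card_fin, nsmul_eq_mul] at hsum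
      rcases ht with rfl | rfl
      · norm_num at hsum
        have : (1 : F) = 0 := by linear_combination (-2 : F) * hsum + 7 * hz
        exact one_ne_zero this
      · norm_num at hsum
        have : (1 : F) = 0 := by linear_combination hsum - 4 * hz
        exact one_ne_zero this

end ns

end Cfsg.Agent.H95.TD
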