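import Cfsg.Agent.H95.TD1
import Cfsg.Agent.H95.TD3

/-!
Frames of planes with five or six members: a vector of the class with at least three components.
-/

set_option autoImplicit false
set_option linter.unusedSectionVars false
set_option linter.unusedVariables false

namespace Cfsg.Agent.H95.TD

open QuadraticMap Cfsg.Agent.Orth Cfsg.Agent.OMax Cfsg.Agent.ODec

variable {F V : Type*} [Field F] [AddCommGroup V] [Module F V]

section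

variable [Finite F] [FiniteDimensional F V] {Q : QuadraticForm F V} {M : Subgroup (OGrp Q)}
  {t : ℕ} {D : Fin t → Submodule F V} {u : V}

theorem fin_step (C : DC Q M 2 D) (hG : ∀ i, Good Q (D i)) (ht : 5 ≤ t) {b : V} (hb : Cl M u b)
    {c : Fin t → V} (hc : ∀ i, c i ∈ D i) (hsum : b = ∑ i, c i) {i₁ i₂ l₀ : Fin t} (h12 : i₁ ≠ i₂) (hl1 : l₀ ≠ i₁)
    (hl2 : l₀ ≠ i₂) (hl0 : c l₀ ≠ 0) {z₁ z₂ : V} (hz₁ : z₁ ∈ D i₁) (hz₂ : z₂ ∈ D i₂) (hq₁ : Q z₁ ≠ 0)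
    (hb₁ : polar Q b z₁ = Q z₁) (hb₂ : polar Q b z₂ = Q z₂) (h12' : Q z₁ + Q z₂ = 0)
    (hcl : Cl M u (b - (z₁ + z₂))) : commutator (OGrp Q) ≤ M := by
  classical
  have hpol : ∀ l, ∀ d ∈ D l, polar Q b d = polar Q (c l) d := by
    intro l d hd; rw [hsum]; exact C.hD.polar_comp hc l hd
  have hcomp : ∀ (i : Fin t) (x : V), x ∈ D i → ∀ j, j ≠ i → ∀ y ∈ D j, polar Q x y = 0 :=
    fun i x hx j hj y hy => C.hD.orth i j (Ne.symm hj) x hx y hy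
  have o12 := hcomp i₂ z₂ hz₂ i₁ h12 z₁ hz₁
  obtain ⟨x₀, hx₀, -, hcx⟩ := Good.exists_q_nonortho C.hD hG (hc l₀) hl0
  have hz : Q (z₁ + z₂) = 0 := by rw [qadd, pc, o12, add_zero]; exact h12'
  refine C.of_sub3 hG hb hcl hz ?_ ?_ {i₁, i₂} ?_ ?_ (l₀ := l₀)
    (by simp only [Finset.mem_insert, Finset.mem_singleton, not_or]; exact ⟨hl1, hl2⟩) hx₀
    (by rw [hpol _ _ hx₀]; exact hcx)
  · intro h0
    obtain ⟨x, hx, -, hzx⟩ := Good.exists_q_nonortho C.hD hG hz₁ (by rintro rfl; exact hq₁ (QuadraticMap.map_zero Q))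
    apply hzx
    have h7 : z₁ = -z₂ := eq_neg_of_add_eq_zero_left h0
    rw [h7, polar_neg_left, hcomp i₂ z₂ hz₂ i₁ h12 x hx, neg_zero]
  · rw [qsub, hz, par, hb₁, hb₂, h12']; ring
  · have := Finset.card_le_two (a := i₁) (b := i₂)
    omega
  · intro i hi y hy
    simp only [Finset.mem_insert, Finset.mem_singleton, not_or] at hi
    rw [pal, hcomp i₁ z₁ hz₁ i hi.1 y hy, hcomp i₂ z₂ hz₂ i hi.2 y hy, add_zero]

theorem part (C : DC Q M 2 D) (hG : ∀ i, Good Q (D i)) (ht : 5 ≤ t) {j₀ : Fin t} (hu : u ∈ D j₀) (hqu : Q u ≠ 0)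
    (hinv : Inv M u) {b : V}
    (hb : Cl M u b) {c : Fin t → V} (hc : ∀ i, c i ∈ D i) (hsum : b = ∑ i, c i) {i₁ i₂ i₃ : Fin t}
    (h12 : i₁ ≠ i₂) (h13 : i₁ ≠ i₃) (h23 : i₂ ≠ i₃) (h1 : c i₁ ≠ 0) (h2 : c i₂ ≠ 0) (h3 : c i₃ ≠ 0)
    (hM : ¬ commutator (OGrp Q) ≤ M) :
    ¬ IsSquare (-1 : F) ∧ (∀ l, Q (c l) ≠ 0) ∧
      ∀ l, ∀ w ∈ D l, Q w ≠ 0 → polar Q b w = 0 → IsSquare (Q w * Q u) := by
  classical
  have hpol : ∀ l, ∀ d ∈ D l, polar Q b d = polar Q (c l) d := by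
    intro l d hd; rw [hsum]; exact C.hD.polar_comp hc l hd
  have hcomp : ∀ (i : Fin t) (x : V), x ∈ D i → ∀ j, j ≠ i → ∀ y ∈ D j, polar Q x y = 0 :=
    fun i x hx j hj y hy => C.hD.orth i j (Ne.symm hj) x hx y hy
  have hsing : ∀ i, c i ≠ 0 → Q (c i) ≠ 0 := by
    intro i hi0 hqi
    apply hM
    have h7 : 7 ≤ Nat.card F := by
      rcases (hG i).good with h | ⟨h, -⟩
      · exact h
      · exact absurd (h _ (hc i) hqi) hi0
    obtain ⟨l, hli, hl0⟩ : ∃ l, l ≠ i ∧ c l ≠ 0 := by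
      by_cases h : i₁ = i
      · exact ⟨i₂, by rw [← h]; exact Ne.symm h12, h2⟩
      · exact ⟨i₁, h, h1⟩
    obtain ⟨f, hf, hqf, hef⟩ := sub_partner (hG i).nd (hc i) hqi hi0
    obtain ⟨s, hs0, hs1, hsm, -⟩ := exists_avoid h7 (-1 : F) 0
    have hfe : polar Q f (c i) = 1 := by rw [pc, hef]
    have hee : polar Q (c i) (c i) = 0 := by rw [pself, hqi, mul_zero]
    have hff : polar Q f f = 0 := by rw [pself, hqf, mul_zero]
    have hq1 : Q (c i - (s * s) • f) = -(s * s) := by rw [qsub, qsmul, psr, hqi, hqf, hef]; ring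
    have hq2 : Q (c i - f) = -1 := by rw [qsub, hqi, hqf, hef]; ring
    have hss0 : s * s ≠ 0 := mul_ne_zero hs0 hs0
    have hq10 : Q (c i - (s * s) • f) ≠ 0 := by rw [hq1]; exact neg_ne_zero.2 hss0
    have hq20 : Q (c i - f) ≠ 0 := by rw [hq2]; exact neg_ne_zero.2 one_ne_zero
    have hm1 : c i - (s * s) • f ∈ D i := (D i).sub_mem (hc i) ((D i).smul_mem _ hf)
    have hm2 : c i - f ∈ D i := (D i).sub_mem (hc i) hf
    have hM := C.refl_pair hm1 hm2 hq10 hq20 ⟨s, by rw [hq1, hq2]; ring⟩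
    have hss1 : (s * s)⁻¹ ≠ 1 := by
      intro h
      have h4 : s * s = 1 := inv_eq_one.1 h
      have h5 : (s - 1) * (s + 1) = 0 := by linear_combination h4
      rcases mul_eq_zero.1 h5 with h6 | h6
      · exact hs1 (sub_eq_zero.1 h6)
      · exact hsm (eq_neg_of_add_eq_zero_left h6)
    have e1 : ((refl Q _ hq10 * refl Q _ hq20 : OGrp Q) : V ≃ₗ[F] V) b = b - (1 - (s * s)⁻¹) • c i := by
      have h4 : (refl Q _ hq20 : V ≃ₗ[F] V) b = b - (c i - f) := by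
        rw [refl_apply, hpol i _ hm2, pdr, hee, hef, hq2]
        norm_num
      rw [coe_mul_apply, h4, refl_apply, pdl, hpol i _ hm1, pdr, psr, hee, hef, pdl, pdr, pdr, psr, psr,
        hee, hef, hff, hfe, hq1]
      have h5 : (-(s * s))⁻¹ * (0 - s * s * 1 - (0 - s * s * 1 - (1 - s * s * 0))) = -(s * s)⁻¹ := by
        field_simp
        ring
      rw [h5]
      have h6 : (s * s)⁻¹ * (s * s) = 1 := inv_mul_cancel₀ hss0
      have h8 : (-(s * s)⁻¹) • (c i - (s * s) • f) = -((s * s)⁻¹ • c i) + ((s * s)⁻¹ * (s * s)) • f := by module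
      rw [h8, h6]
      module
    have hbz : Cl M u (b - (1 - (s * s)⁻¹) • c i) := by rw [← e1]; exact hinv _ hM _ hb
    obtain ⟨x₀, hx₀, -, hcx⟩ := Good.exists_q_nonortho C.hD hG (hc l) hl0
    refine C.of_sub3 hG hb hbz (by rw [qsmul, hqi, mul_zero]) ?_ (by rw [← e1, OGrp_q]) {i} (by
      rw [Finset.card_singleton]; omega) ?_
      (l₀ := l) (by simpa using hli) hx₀ (by rw [hpol l _ hx₀]; exact hcx)
    · exact smul_ne_zero (sub_ne_zero.2 (Ne.symm hss1)) hi0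
    · intro j hj y hy
      rw [Finset.mem_singleton] at hj
      rw [psl, hcomp i _ (hc i) j hj y hy, mul_zero]
  have hpair : ∀ i j : Fin t, c i ≠ 0 → c j ≠ 0 → ∃ z₁ ∈ D i, ∃ z₂ ∈ D j, Q z₁ ≠ 0 ∧ Q z₂ ≠ 0 ∧
      polar Q b z₁ = Q z₁ ∧ polar Q b z₂ = Q z₂ ∧ Q z₁ + Q z₂ = 0 := by
    intro i j hi hj
    obtain ⟨z₁, hz₁, z₂, hz₂, h4, h5, h6, h7, h8⟩ := pair_exists (hG i) (hG j) (C.aniso_iff i j) (hc i) (hc j)
      (hsing i hi) (hsing j hj)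
    exact ⟨z₁, hz₁, z₂, hz₂, h4, h5, by rw [hpol i _ hz₁]; exact h6, by rw [hpol j _ hz₂]; exact h7, h8⟩
  have hfull : ∀ l, c l ≠ 0 := by
    by_contra hfull
    push Not at hfull
    obtain ⟨l, hl⟩ := hfull
    apply hM
    have hbl : ∀ y ∈ D l, polar Q b y = 0 := by
      intro y hy; rw [hpol l y hy, hl, polar_zero_left]
    obtain ⟨z₁, hz₁, z₂, hz₂, hq₁, hq₂, hb₁, hb₂, h12'⟩ := hpair i₁ i₂ h1 h2
    have hl2 : l ≠ i₂ := by rintro rfl; exact h2 hl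
    have hl1 : l ≠ i₁ := by rintro rfl; exact h1 hl
    have o12 := hcomp i₂ z₂ hz₂ i₁ h12 z₁ hz₁
    have c1 := C.refl_Cl hinv hb hbl hz₂ hq₂
    rw [refl_of_eq hq₂ hb₂] at c1
    have c2 := C.refl_Cl hinv c1 (l := l) (fun y hy => by
      rw [pdl, hbl y hy, hcomp i₂ z₂ hz₂ l hl2 y hy, sub_zero]) hz₁ hq₁
    rw [refl_of_eq hq₁ (by rw [pdl, hb₁, o12, sub_zero])] at c2
    have e1 : b - z₂ - z₁ = b - (z₁ + z₂) := by abel
    rw [e1] at c2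
    exact fin_step C hG ht hb hc hsum h12 (Ne.symm h13) (Ne.symm h23) h3 hz₁ hz₂ hq₁ hb₁ hb₂ h12' c2
  have hns : ¬ IsSquare (-1 : F) := by
    rintro ⟨e, he⟩
    apply hM
    obtain ⟨z₁, hz₁, z₂, hz₂, hq₁, hq₂, hb₁, hb₂, h12'⟩ := hpair i₁ i₂ h1 h2
    have o12 := hcomp i₂ z₂ hz₂ i₁ h12 z₁ hz₁
    have hm := C.refl_pair hz₁ hz₂ hq₁ hq₂ ⟨e * Q z₁, by
      have : Q z₂ = -Q z₁ := by linear_combination h12'
      rw [this]; linear_combination (Q z₁ * Q z₁) * he⟩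
    have h4 := hinv _ hm _ hb
    rw [coe_mul_apply, refl_of_eq hq₂ hb₂, refl_of_eq hq₁ (by rw [pdl, hb₁, o12, sub_zero])] at h4
    have e1 : b - z₂ - z₁ = b - (z₁ + z₂) := by abel
    rw [e1] at h4
    exact fin_step C hG ht hb hc hsum h12 (Ne.symm h13) (Ne.symm h23) h3 hz₁ hz₂ hq₁ hb₁ hb₂ h12' h4
  refine ⟨hns, fun l => hsing l (hfull l), ?_⟩
  intro l w hw hqw hbw
  by_contra hnsq
  apply hM
  obtain ⟨j₁, hj₁⟩ := exists_not_mem_finset ({l} : Finset (Fin t)) (by simp; omega)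
  obtain ⟨j₂, hj₂⟩ := exists_not_mem_finset ({l, j₁} : Finset (Fin t))
    (lt_of_le_of_lt Finset.card_le_two (by omega))
  obtain ⟨j₃, hj₃⟩ := exists_not_mem_finset ({l, j₁, j₂} : Finset (Fin t))
    (lt_of_le_of_lt Finset.card_le_three (by omega))
  simp only [Finset.mem_insert, Finset.mem_singleton, not_or] at hj₁ hj₂ hj₃
  -- the main step
  have main : ∀ i₁ i₂ : Fin t, i₁ ≠ i₂ → i₁ ≠ l → i₂ ≠ l → j₃ ≠ i₁ → j₃ ≠ i₂ → ∀ z₁ ∈ D i₁, ∀ z₂ ∈ D i₂,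
      Q z₁ ≠ 0 → Q z₂ ≠ 0 → polar Q b z₁ = Q z₁ → polar Q b z₂ = Q z₂ → Q z₁ + Q z₂ = 0 →
      IsSquare (Q z₁ * Q u) → ¬ IsSquare (Q z₂ * Q u) → commutator (OGrp Q) ≤ M := by
    intro i₁ i₂ h12 hil1 hil2 hj1 hj2 z₁ hz₁ z₂ hz₂ hq₁ hq₂ hb₁ hb₂ h12' hs1 hs2
    have o12 := hcomp i₂ z₂ hz₂ i₁ h12 z₁ hz₁
    have hsq : IsSquare (Q z₂ * Q w) := by
      have h4 := isSquare_mul_of_not hs2 hnsq
      obtain ⟨r, hr⟩ := h4
      refine ⟨r / Q u, ?_⟩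
      rw [div_mul_div_comm, eq_div_iff (mul_ne_zero hqu hqu)]
      linear_combination hr
    have hm := C.refl_pair hz₂ hw hq₂ hqw hsq
    have h4 := hinv _ hm _ hb
    rw [coe_mul_apply, refl_apply_of_ortho hqw hbw, refl_of_eq hq₂ hb₂] at h4
    have h5 : Cl M u z₁ := C.mem_Cl hz₁ hu hq₁ hqu hs1
    have h6 := h4.refl h5
    rw [refl_of_eq h5.q (by rw [pdl, hb₁, o12, sub_zero])] at h6
    have e1 : b - z₂ - z₁ = b - (z₁ + z₂) := by abel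
    rw [e1] at h6
    exact fin_step C hG ht hb hc hsum h12 hj1 hj2 (hfull _) hz₁ hz₂ hq₁ hb₁ hb₂ h12' h6
  obtain ⟨z₁, hz₁, z₂, hz₂, hq₁, hq₂, hb₁, hb₂, h12'⟩ := hpair j₁ j₂ (hfull _) (hfull _)
  have hz21 : Q z₂ = -Q z₁ := by linear_combination h12'
  have hprod : (Q z₁ * Q u) * (Q z₂ * Q u) = -((Q z₁ * Q u) * (Q z₁ * Q u)) := by rw [hz21]; ring
  have hqq : Q z₁ * Q u ≠ 0 := mul_ne_zero hq₁ hqu
  have hnot : ¬ IsSquare ((Q z₁ * Q u) * (Q z₂ * Q u)) := by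
    rintro ⟨r, hr⟩
    apply hns
    refine ⟨r / (Q z₁ * Q u), ?_⟩
    rw [div_mul_div_comm, eq_div_iff (mul_ne_zero hqq hqq)]
    linear_combination hr - hprod
  by_cases hs1 : IsSquare (Q z₁ * Q u)
  · have hs2 : ¬ IsSquare (Q z₂ * Q u) := fun h => hnot (hs1.mul h)
    exact main j₁ j₂ (Ne.symm hj₂.2) hj₁ hj₂.1 hj₃.2.1 hj₃.2.2 z₁ hz₁ z₂ hz₂ hq₁ hq₂ hb₁ hb₂ h12' hs1 hs2
  · have hs2 : IsSquare (Q z₂ * Q u) := by
      by_contra h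
      exact hnot (isSquare_mul_of_not hs1 h)
    exact main j₂ j₁ hj₂.2 hj₂.1 hj₁ hj₃.2.2 hj₃.2.1 z₂ hz₂ z₁ hz₁ hq₂ hq₁ hb₂ hb₁ (by rw [add_comm]; exact h12')
      hs2 hs1

end

end Cfsg.Agent.H95.TD
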