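import Cfsg.Agent.H95.TD4

/-!
Frames of planes with five or six members: a vector of the class with at least three components, end.
-/

set_option autoImplicit false
set_option linter.unusedSectionVars false
set_option linter.unusedVariables false

namespace Cfsg.Agent.H95.TD

open QuadraticMap Cfsg.Agent.Orth Cfsg.Agent.OMax Cfsg.Agent.ODec

variable {F V : Type*} [Field F] [AddCommGroup V] [Module F V]

section

variable [Finite F] [FiniteDimensional F V] {Q : QuadraticForm F V} {M : Subgroup (OGrp Q)}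
  {t : ℕ} {D : Fin t → Submodule F V} {u : V}

theorem perp_vec {P : Submodule F V} (hG : Good Q P) (h2 : (2 : F) ≠ 0) {c : V} (hc : c ∈ P) (hq : Q c ≠ 0) {β : F}
    (hβ : β ≠ 0) (hsq : ∀ w ∈ P, Q w ≠ 0 → polar Q c w = 0 → IsSquare (Q w * β)) :
    ∃ d ∈ P, polar Q c d = 0 ∧ Q d = β ∧ ∀ x ∈ P, ∃ p r : F, x = p • c + r • d := by
  obtain ⟨a, ha, ha0, hca⟩ := plane_exists_ortho (Q := Q) hG.dim c
  have hli : ∀ p r : F, p • c + r • a = 0 → p = 0 ∧ r = 0 := by
    intro p r h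
    have h3 : polar Q (p • c + r • a) c = 0 := by rw [h, polar_zero_left]
    rw [pal, psl, psl, pself, pc Q a c, hca, mul_zero, add_zero] at h3
    have h4 : p = 0 := (mul_eq_zero.1 h3).resolve_right (mul_ne_zero h2 hq)
    rw [h4, zero_smul, zero_add] at h
    exact ⟨h4, (smul_eq_zero.1 h).resolve_right ha0⟩
  have hqa : Q a ≠ 0 := by
    intro hqa
    have : a ∈ P ⊓ perp Q P := ⟨ha, fun y hy => by
      change polar Q y a = 0
      obtain ⟨p, r, rfl⟩ := plane_span_of_li hG.dim hc ha hli y hy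
      rw [pal, psl, psl, hca, pself, hqa]; ring⟩
    rw [hG.nd] at this
    exact ha0 this
  obtain ⟨e, he⟩ := hsq a ha hqa hca
  have he0 : e ≠ 0 := by
    rintro rfl
    rw [mul_zero] at he
    exact mul_ne_zero hqa hβ he
  have hk0 : e / Q a ≠ 0 := div_ne_zero he0 hqa
  refine ⟨(e / Q a) • a, P.smul_mem _ ha, by rw [psr, hca, mul_zero], ?_, ?_⟩
  · rw [qsmul]
    field_simp
    linear_combination -he
  · intro x hx
    obtain ⟨p, r, h⟩ := plane_span_of_li hG.dim hc ha hli x hx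
    refine ⟨p, r / (e / Q a), ?_⟩
    rw [smul_smul, div_mul_cancel₀ _ hk0]
    exact h

theorem three5 (C : DC Q M 2 D) (hG : ∀ i, Good Q (D i)) (ht : t = 5 ∨ t = 6) {j₀ : Fin t} (hu : u ∈ D j₀)
    (hqu : Q u ≠ 0) (hinv : Inv M u) {b : V}
    (hb : Cl M u b) {c : Fin t → V} (hc : ∀ i, c i ∈ D i) (hsum : b = ∑ i, c i) {i₁ i₂ i₃ : Fin t}
    (h12 : i₁ ≠ i₂) (h13 : i₁ ≠ i₃) (h23 : i₂ ≠ i₃) (h1 : c i₁ ≠ 0) (h2 : c i₂ ≠ 0) (h3 : c i₃ ≠ 0) :
    commutator (OGrp Q) ≤ M := by
  classical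
  by_contra hM
  have ht5 : 5 ≤ t := by omega
  obtain ⟨hm1, hq₀, hperp₀⟩ := part C hG ht5 hu hqu hinv hb hc hsum h12 h13 h23 h1 h2 h3 hM
  have h2F := two_ne_zero_of hm1
  have h7 : 7 ≤ Nat.card F := by
    rcases (hG j₀).good with h | ⟨-, h⟩
    · exact h
    · haveI : Fintype F := Fintype.ofFinite F
      have h4 : Fintype.card F % 4 = 3 := by
        by_contra h5
        exact hm1 (FiniteField.isSquare_neg_one_iff.2 h5)
      rw [Nat.card_eq_fintype_card] at h ⊢
      omega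
  -- facts for a vector with at most one vanishing component
  have key : ∀ (b : V) (c : Fin t → V), Cl M u b → (∀ i, c i ∈ D i) → b = ∑ i, c i → ∀ l, (∀ j, j ≠ l → c j ≠ 0) →
      (∀ j, Q (c j) ≠ 0) ∧ ∀ j, ∀ w ∈ D j, Q w ≠ 0 → polar Q (c j) w = 0 → IsSquare (Q w * Q u) := by
    intro b c hb hc hsum l hl
    obtain ⟨j₁, hj₁⟩ := exists_not_mem_finset ({l} : Finset (Fin t)) (by simp; omega)
    obtain ⟨j₂, hj₂⟩ := exists_not_mem_finset ({l, j₁} : Finset (Fin t))
      (lt_of_le_of_lt Finset.card_le_two (by omega))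
    obtain ⟨j₃, hj₃⟩ := exists_not_mem_finset ({l, j₁, j₂} : Finset (Fin t))
      (lt_of_le_of_lt Finset.card_le_three (by omega))
    simp only [Finset.mem_insert, Finset.mem_singleton, not_or] at hj₁ hj₂ hj₃
    obtain ⟨-, h4, h5⟩ := part C hG ht5 hu hqu hinv hb hc hsum (Ne.symm hj₂.2) (Ne.symm hj₃.2.1)
      (Ne.symm hj₃.2.2) (hl _ hj₁) (hl _ hj₂.1) (hl _ hj₃.1) hM
    refine ⟨h4, fun j w hw hqw hcw => h5 j w hw hqw ?_⟩
    rw [hsum, C.hD.polar_comp hc j hw]; exact hcw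
  -- transitions
  have trans : ∀ (b : V) (c : Fin t → V), Cl M u b → (∀ i, c i ∈ D i) → b = ∑ i, c i → (∀ i, c i ≠ 0) →
      ∀ (l : Fin t) (y s : F), s ≠ 0 → Q (c l) / Q b + y * y = s * s →
      ∃ (b' : V) (c' : Fin t → V), Cl M u b' ∧ (∀ i, c' i ∈ D i) ∧ b' = ∑ i, c' i ∧ (∀ i, c' i ≠ 0) ∧
        (∀ j, Q (c' j) / Q b' = nx (fun l => Q (c l) / Q b) l s j) ∧
        IsSquare (Q (c' l) / Q b' * (Q (c l) / Q b)) := by
    intro b c hb hc hsum hc0 l y s hs hys
    obtain ⟨hq, hperp⟩ := key b c hb hc hsum l fun j _ => hc0 j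
    have hqb := hb.q
    obtain ⟨d, hd, hcd, hqd, -⟩ := perp_vec (hG l) h2F (hc l) (hq l) hqb (fun w hw hqw hcw =>
      sq_of_sq_mul hqu (hperp l w hw hqw hcw) hb.sq)
    obtain ⟨n, hn⟩ : ∃ n, n = Q (c l) / Q b := ⟨_, rfl⟩
    have hqcl : Q (c l) = n * Q b := by rw [hn]; field_simp
    have hn0 : n ≠ 0 := by rw [hn]; exact div_ne_zero (hq l) hqb
    obtain ⟨w, hw⟩ : ∃ w, w = c l + y • d := ⟨_, rfl⟩
    have hwD : w ∈ D l := by rw [hw]; exact (D l).add_mem (hc l) ((D l).smul_mem _ hd)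
    have hqw : Q w = Q b * (s * s) := by
      rw [hw, qadd, qsmul, psr, hcd, hqd, ← hys]
      field_simp
      ring
    have hqw0 : Q w ≠ 0 := by rw [hqw]; exact mul_ne_zero hqb (mul_ne_zero hs hs)
    have hwCl : Cl M u w := C.mem_Cl hwD hu hqw0 hqu (by
      obtain ⟨e, he⟩ := hb.sq
      exact ⟨e * s, by rw [hqw]; linear_combination (s * s) * he⟩)
    have h4 := hwCl.refl hb
    have hwb : polar Q w b = 2 * Q (c l) := by
      rw [pc, hsum, C.hD.polar_comp hc l hwD, hw, par, psr, hcd, pself]; ring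
    have e1 : (refl Q b hb.q : V ≃ₗ[F] V) w = w - (2 * n) • b := by
      rw [refl_apply, hwb, hqcl]
      congr 2
      field_simp
    obtain ⟨b', hb'⟩ : ∃ b', b' = w - (2 * n) • b := ⟨_, rfl⟩
    have hqb' : Q b' = Q b * (s * s) := by rw [hb', ← e1, OGrp_q, hqw]
    rw [e1, ← hb'] at h4
    have hqb'0 : Q b' ≠ 0 := h4.q
    have hcl' : w - (2 * n) • c l = (1 - 2 * n) • c l + y • d := by rw [hw]; module
    refine ⟨b', fun j => (if j = l then w else 0) - (2 * n) • c j, h4, ?_, ?_, ?_⟩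
    · intro j
      refine (D j).sub_mem ?_ ((D j).smul_mem _ (hc j))
      split_ifs with hjl
      · rw [hjl]; exact hwD
      · exact (D j).zero_mem
    · rw [Finset.sum_sub_distrib, Finset.sum_ite_eq' Finset.univ l fun _ => w, if_pos (Finset.mem_univ l),
        ← Finset.smul_sum, ← hsum, hb']
    -- the remaining claims
    have hmem : ∀ j, (if j = l then w else 0) - (2 * n) • c j ∈ D j := by
      intro j
      refine (D j).sub_mem ?_ ((D j).smul_mem _ (hc j))
      split_ifs with hjl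
      · rw [hjl]; exact hwD
      · exact (D j).zero_mem
    have hsum' : b' = ∑ j, ((if j = l then w else 0) - (2 * n) • c j) := by
      rw [Finset.sum_sub_distrib, Finset.sum_ite_eq' Finset.univ l fun _ => w, if_pos (Finset.mem_univ l),
        ← Finset.smul_sum, ← hsum, hb']
    obtain ⟨hq', hperp'⟩ := key b' (fun j => (if j = l then w else 0) - (2 * n) • c j) h4 hmem hsum' l (by
      intro j hjl
      simp only [if_neg hjl, zero_sub, ne_eq, neg_eq_zero, smul_eq_zero, not_or]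
      exact ⟨mul_ne_zero h2F hn0, hc0 j⟩)
    have hqcl' : Q (w - (2 * n) • c l) = ((1 - 2 * n) * (1 - 2 * n) * n + y * y) * Q b := by
      rw [hcl', qadd, qsmul, qsmul, psl, psr, hcd, hqd, hqcl]; ring
    have hyy : y * y = s * s - n := by rw [hn]; linear_combination hys
    refine ⟨?_, ?_, ?_⟩
    · intro j h0
      apply hq' j
      simp only at h0 ⊢
      rw [h0, QuadraticMap.map_zero]
    · intro j
      by_cases hjl : j = l
      · subst hjl
        rw [nx_self]
        simp only [if_true]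
        rw [hqcl', hqb', ← hn, hyy]
        field_simp
        ring
      · rw [nx_ne _ hjl]
        simp only [if_neg hjl, zero_sub, QuadraticMap.map_neg]
        rw [qsmul, hqb', ← hn]
        field_simp
        ring
    · simp only [if_true]
      have hq'l := hq' l
      simp only [if_true] at hq'l
      obtain ⟨d₁, hd₁⟩ : ∃ d₁, d₁ = (-(y * Q b)) • c l + ((1 - 2 * n) * Q (c l)) • d := ⟨_, rfl⟩
      have hd₁D : d₁ ∈ D l := by
        rw [hd₁]; exact (D l).add_mem ((D l).smul_mem _ (hc l)) ((D l).smul_mem _ hd)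
      have hqd₁ : Q d₁ = Q b * Q (c l) * Q (w - (2 * n) • c l) := by
        rw [hd₁, hqcl', qadd, qsmul, qsmul, psl, psr, hcd, hqd, hqcl]; ring
      have hpd₁ : polar Q (w - (2 * n) • c l) d₁ = 0 := by
        rw [hcl', hd₁, pal, par, par, psl, psl, psl, psl, psr, psr, psr, psr, pself, pself, pc Q d (c l), hcd, hqd]
        ring
      have h5 := hperp' l d₁ hd₁D (by rw [hqd₁]; exact mul_ne_zero (mul_ne_zero hqb (hq l)) hq'l)
        (by simp only [if_true]; exact hpd₁)
      have h6 : IsSquare ((Q (w - (2 * n) • c l) * Q (c l)) * 1) := by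
        refine sq_of_sq_mul (b := Q b * Q u) (mul_ne_zero hqb hqu) ?_ (by rw [one_mul]; exact hb.sq)
        rw [hqd₁] at h5
        convert h5 using 1
        ring
      obtain ⟨r, hr⟩ := h6
      refine ⟨r / (Q b * s), ?_⟩
      rw [hqb']
      field_simp
      linear_combination hr
  -- the system
  let S : (Fin t → F) → Prop := fun n => ∃ (b : V) (c : Fin t → V), Cl M u b ∧ (∀ i, c i ∈ D i) ∧ b = ∑ i, c i ∧
    (∀ i, c i ≠ 0) ∧ n = fun l => Q (c l) / Q b
  have hS : Sys S := by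
    constructor
    · rintro n ⟨b, c, hb, hc, hsum, hc0, rfl⟩
      rw [← Finset.sum_div, ← C.hD.q_comp hc, ← hsum]
      exact div_self hb.q
    · rintro n ⟨b, c, hb, hc, hsum, hc0, rfl⟩ l
      exact div_ne_zero ((key b c hb hc hsum l fun j _ => hc0 j).1 l) hb.q
    · rintro n ⟨b, c, hb, hc, hsum, hc0, rfl⟩ l y s hs hys
      obtain ⟨b', c', hb', hc', hsum', hc0', hn', -⟩ := trans b c hb hc hsum hc0 l y s hs hys
      exact ⟨b', c', hb', hc', hsum', hc0', (funext hn').symm⟩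
    · rintro n ⟨b, c, hb, hc, hsum, hc0, rfl⟩ l y s hs hys
      obtain ⟨b', c', hb', hc', hsum', hc0', hn', hsq⟩ := trans b c hb hc hsum hc0 l y s hs hys
      rw [hn' l] at hsq
      exact hsq
  have hc0 : ∀ i, c i ≠ 0 := by
    intro i h; apply hq₀ i; rw [h, QuadraticMap.map_zero]
  have hn₀ : S (fun l => Q (c l) / Q b) := ⟨b, c, hb, hc, hsum, hc0, rfl⟩
  by_cases han : ∀ i, ∀ x ∈ D i, Q x = 0 → x = 0
  · refine contra_sq hm1 ht hS hn₀ fun l => ?_
    by_contra hl
    obtain ⟨g, hg0, hg⟩ := sq_neg_of hm1 hl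
    have hqb := hb.q
    obtain ⟨hq, hperp⟩ := key b c hb hc hsum l fun j _ => hc0 j
    obtain ⟨d, hd, hcd, hqd, -⟩ := perp_vec (hG l) h2F (hc l) (hq l) hqb (fun w hw hqw hcw =>
      sq_of_sq_mul hqu (hperp l w hw hqw hcw) hb.sq)
    have h4 : Q (c l + g • d) = 0 := by
      rw [qadd, qsmul, psr, hcd, hqd, ← hg]
      field_simp
      ring
    have h5 := han l _ ((D l).add_mem (hc l) ((D l).smul_mem _ hd)) h4
    have h6 : polar Q (c l + g • d) d = 0 := by rw [h5, polar_zero_left]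
    rw [pal, psl, hcd, pself, hqd, zero_add] at h6
    exact mul_ne_zero hg0 (mul_ne_zero h2F hqb) h6
  · push Not at han
    obtain ⟨i₀, x₀, hx₀, hqx₀, hx₀0⟩ := han
    have hiso : ∀ i, ∃ x ∈ D i, Q x = 0 ∧ x ≠ 0 := by
      intro i
      by_contra hcon
      push Not at hcon
      exact hx₀0 ((C.aniso_iff i i₀).1 hcon x₀ hx₀ hqx₀)
    refine contra_ns hm1 h7 ht hS ?_ hn₀
    rintro n ⟨b, c, hb, hc, hsum, hc0, rfl⟩ l ⟨r, hr⟩
    have hqb := hb.q
    obtain ⟨hq, hperp⟩ := key b c hb hc hsum l fun j _ => hc0 j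
    obtain ⟨d, hd, hcd, hqd, hspan⟩ := perp_vec (hG l) h2F (hc l) (hq l) hqb (fun w hw hqw hcw =>
      sq_of_sq_mul hqu (hperp l w hw hqw hcw) hb.sq)
    obtain ⟨x, hx, hqx, hx0⟩ := hiso l
    obtain ⟨p, q, rfl⟩ := hspan x hx
    have hr0 : r ≠ 0 := by
      rintro rfl
      rw [mul_zero] at hr
      exact div_ne_zero (hq l) hqb hr
    have hqcl : Q (c l) = r * r * Q b := by rw [← hr]; field_simp
    have h4 : (p * r) * (p * r) + q * q = 0 := by
      rw [qadd, qsmul, qsmul, psl, psr, hcd, hqd, hqcl] at hqx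
      have : ((p * r) * (p * r) + q * q) * Q b = 0 := by linear_combination hqx
      exact (mul_eq_zero.1 this).resolve_right hqb
    by_cases hq0 : q = 0
    · rw [hq0, mul_zero, add_zero] at h4
      have h5 : p = 0 := (mul_eq_zero.1 (mul_self_eq_zero.1 h4)).resolve_right hr0
      apply hx0
      rw [hq0, h5, zero_smul, zero_smul, add_zero]
    · apply hm1
      refine ⟨p * r / q, ?_⟩
      rw [div_mul_div_comm, eq_div_iff (mul_ne_zero hq0 hq0)]
      linear_combination -h4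

end

end Cfsg.Agent.H95.TD
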