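import Cfsg.Agent.H95.TD5

/-!
Frames of planes with five or six members.
-/

set_option autoImplicit false
set_option linter.unusedSectionVars false
set_option linter.unusedVariables false

namespace Cfsg.Agent.H95.TD

open QuadraticMap Cfsg.Agent.Orth Cfsg.Agent.OMax Cfsg.Agent.ODec

set_option maxRecDepth 100000 in
theorem z7 : ∀ κ σ π : ZMod 7, (∀ c : ZMod 7, c ≠ 0 → κ * c * c + σ * c + π = 0 ∨ κ * c * c + σ * c + π = 2 * c ∨
    κ * c * c + σ * c + π = 6 * c) → κ = 0 ∧ π = 0 := by
  decide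

theorem z7' : ∀ x c : ZMod 7, c ≠ 0 → x ≠ 0 → c - x ≠ 0 → (∀ r : ZMod 7, x * (c - x) ≠ r * r) →
    x = 2 * c ∨ x = 6 * c := by
  decide

variable {F V : Type*} [Field F] [AddCommGroup V] [Module F V]

section

variable [Finite F] [FiniteDimensional F V] {Q : QuadraticForm F V} {M : Subgroup (OGrp Q)}
  {t : ℕ} {D : Fin t → Submodule F V} {u : V}

/-- **Case I.** -/
theorem case_one5 (C : DC Q M 2 D) (hG : ∀ i, Good Q (D i)) (ht : t = 5 ∨ t = 6) {j₀ : Fin t} (hu : u ∈ D j₀)
    (hqu : Q u ≠ 0) (hinv : Inv M u) (hM : ∃ g ∈ M, ¬ Pres D g) : commutator (OGrp Q) ≤ M := by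
  classical
  obtain ⟨b, hb, hbout⟩ := C.exists_out hG hu hqu hinv hM
  obtain ⟨c, hc, hsum⟩ := C.hD.sup b
  -- two components, the first non-singular
  obtain ⟨i₁, i₂, h12, hq1, h2⟩ : ∃ i₁ i₂, i₁ ≠ i₂ ∧ Q (c i₁) ≠ 0 ∧ c i₂ ≠ 0 := by
    obtain ⟨i₁, h1⟩ : ∃ i, Q (c i) ≠ 0 := by
      by_contra hcon
      push Not at hcon
      apply hb.q
      rw [hsum, C.hD.q_comp hc]
      exact Finset.sum_eq_zero fun i _ => hcon i
    obtain ⟨i₂, h2, h3⟩ : ∃ i, i ≠ i₁ ∧ c i ≠ 0 := by
      by_contra hcon
      push Not at hcon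
      apply hbout i₁
      rw [hsum, Finset.sum_eq_single i₁ (fun l _ hl => hcon l hl)
        (fun h => absurd (Finset.mem_univ i₁) h)]
      exact hc i₁
    exact ⟨i₁, i₂, Ne.symm h2, h1, h3⟩
  have h1 : c i₁ ≠ 0 := by
    intro h; rw [h, QuadraticMap.map_zero] at hq1; exact hq1 rfl
  by_cases h3 : ∃ i₃, i₁ ≠ i₃ ∧ i₂ ≠ i₃ ∧ c i₃ ≠ 0
  · obtain ⟨i₃, h13, h23, h3⟩ := h3
    exact three5 C hG ht hu hqu hinv hb hc hsum h12 h13 h23 h1 h2 h3
  push Not at h3
  have hb12 : b = c i₁ + c i₂ := by
    rw [hsum, ← Finset.add_sum_erase _ _ (Finset.mem_univ i₁),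
      ← Finset.add_sum_erase (Finset.univ.erase i₁) _ (Finset.mem_erase.2 ⟨Ne.symm h12, Finset.mem_univ i₂⟩)]
    have : ∑ x ∈ (Finset.univ.erase i₁).erase i₂, c x = 0 := by
      refine Finset.sum_eq_zero fun i hi => ?_
      rw [Finset.mem_erase, Finset.mem_erase] at hi
      exact h3 i (Ne.symm hi.2.1) (Ne.symm hi.1)
    rw [this, add_zero]
  have hcomp : ∀ (i : Fin t) (x : V), x ∈ D i → ∀ j, j ≠ i → ∀ y ∈ D j, polar Q x y = 0 :=
    fun i x hx j hj y hy => C.hD.orth i j (Ne.symm hj) x hx y hy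
  obtain ⟨i₃, hi₃⟩ := exists_not_mem_finset ({i₁, i₂} : Finset (Fin t))
    (lt_of_le_of_lt Finset.card_le_two (by omega))
  obtain ⟨l, hl⟩ := exists_not_mem_finset ({i₁, i₂, i₃} : Finset (Fin t))
    (lt_of_le_of_lt Finset.card_le_three (by omega))
  simp only [Finset.mem_insert, Finset.mem_singleton, not_or] at hi₃ hl
  obtain ⟨g, hg, hfix, hmap⟩ := C.swap (j := i₃) (l := i₂) hi₃.2
  obtain ⟨x, hx, hgx⟩ := hmap _ (hc i₂)
  have hx0 : x ≠ 0 := by rintro rfl; rw [map_zero] at hgx; exact h2 hgx.symm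
  have e1 : ((g⁻¹ : OGrp Q) : V ≃ₗ[F] V) b = c i₁ + x := by
    have : b = (g : V ≃ₗ[F] V) (c i₁ + x) := by
      rw [map_add, hgx, hfix i₁ (Ne.symm hi₃.1) h12 _ (hc i₁)]; exact hb12
    rw [this, coe_inv_apply_self]
  have hb1 : Cl M u (c i₁ + x) := by rw [← e1]; exact hinv _ (M.inv_mem hg) _ hb
  obtain ⟨x₁, hx₁, hqx₁, hcx₁, hli, w, hw, hqw, hwc⟩ := (hG i₁).exists_rot (hc i₁) hq1
  have hb2 : Cl M u (x₁ + x) := by
    have h4 := C.refl_Cl hinv hb1 (l := l) (fun y hy => by
      rw [pal, hcomp i₁ _ (hc i₁) l hl.1 y hy, hcomp i₃ x hx l hl.2.2 y hy, add_zero]) hw hqw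
    rwa [map_add, hwc, refl_apply_of_ortho hqw (hcomp i₃ x hx i₁ (Ne.symm hi₃.1) w hw)] at h4
  have hb3 := hb2.refl hb
  obtain ⟨b', hb'⟩ : ∃ b', b' = (Orth.refl Q b hb.q : V ≃ₗ[F] V) (x₁ + x) := ⟨_, rfl⟩
  rw [← hb'] at hb3
  have hpol : polar Q (x₁ + x) b = polar Q (c i₁) x₁ := by
    rw [hb12, pal, par, par, pc Q x₁ (c i₁), hcomp i₁ x₁ hx₁ i₂ (Ne.symm h12) _ (hc i₂),
      hcomp i₃ x hx i₁ (Ne.symm hi₃.1) _ (hc i₁), hcomp i₃ x hx i₂ (Ne.symm hi₃.2) _ (hc i₂)]
    ring
  obtain ⟨μ, hμ⟩ : ∃ μ, μ = (Q b)⁻¹ * polar Q (c i₁) x₁ := ⟨_, rfl⟩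
  have hμ0 : μ ≠ 0 := by rw [hμ]; exact mul_ne_zero (inv_ne_zero hb.q) hcx₁
  have hb'' : b' = x₁ + x - μ • (c i₁ + c i₂) := by
    rw [hb', refl_apply, hpol, ← hμ, ← hb12]
  obtain ⟨e, he, hesum⟩ := C.hD.sup b'
  have hep : ∀ l, ∀ d ∈ D l, polar Q b' d = polar Q (e l) d := by
    intro l d hd; rw [hesum]; exact C.hD.polar_comp he l hd
  refine three5 C hG ht hu hqu hinv hb3 he hesum h12 (Ne.symm hi₃.1) (Ne.symm hi₃.2) ?_ ?_ ?_
  · intro h0
    have h5 : x₁ - μ • c i₁ = 0 := by
      refine eq_zero_of_ortho C.hD ((D i₁).sub_mem hx₁ ((D i₁).smul_mem _ (hc i₁))) fun y hy => ?_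
      have h6 := hep i₁ y hy
      rw [h0, polar_zero_left, hb'', pdl, pal, psl, pal, hcomp i₃ x hx i₁ (Ne.symm hi₃.1) y hy,
        hcomp i₂ _ (hc i₂) i₁ h12 y hy, add_zero, add_zero] at h6
      rw [pdl, psl, h6]
    have h6 := hli (-μ) 1 (by rw [← h5]; module)
    exact one_ne_zero h6.2
  · intro h0
    apply h2
    refine eq_zero_of_ortho C.hD (hc i₂) fun y hy => ?_
    have h6 := hep i₂ y hy
    rw [h0, polar_zero_left, hb'', pdl, pal, psl, pal, hcomp i₃ x hx i₂ (Ne.symm hi₃.2) y hy,
      hcomp i₁ _ (hc i₁) i₂ (Ne.symm h12) y hy, hcomp i₁ x₁ hx₁ i₂ (Ne.symm h12) y hy] at h6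
    have h7 : μ * polar Q (c i₂) y = 0 := by linear_combination -h6
    exact (mul_eq_zero.1 h7).resolve_left hμ0
  · intro h0
    apply hx0
    refine eq_zero_of_ortho C.hD hx fun y hy => ?_
    have h6 := hep i₃ y hy
    rw [h0, polar_zero_left, hb'', pdl, pal, psl, pal, hcomp i₁ x₁ hx₁ i₃ hi₃.1 y hy,
      hcomp i₁ _ (hc i₁) i₃ hi₃.1 y hy, hcomp i₂ _ (hc i₂) i₃ hi₃.2 y hy] at h6
    linear_combination h6

/-- **Case II.** -/
theorem case_two5 (C : DC Q M 2 D) (hG : ∀ i, Good Q (D i)) (hP : HP M D) (ht : 5 ≤ t) :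
    ∀ m ∈ M, Pres D m := by
  classical
  intro m hm
  by_contra hmp
  by_cases han : ∀ i, ∀ x ∈ D i, Q x = 0 → x = 0
  · -- anisotropic planes
    obtain ⟨w, hw, hqw⟩ := C.exists_q ⟨0, by omega⟩ 1
    have hqw0 : Q w ≠ 0 := by rw [hqw]; exact one_ne_zero
    have key : ∀ j, ∃ a ∈ D j, Q a ≠ 0 ∧ polar Q w ((m : V ≃ₗ[F] V) a) = 0 := by
      intro j
      obtain ⟨a, ha, ha0, h⟩ := plane_exists_ortho (Q := Q) (C.hD.dim j) (((m⁻¹ : OGrp Q) : V ≃ₗ[F] V) w)
      exact ⟨a, ha, fun h => ha0 (han j a ha h), by rw [polar_apply_comm]; exact h⟩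
    choose a ha hqa hwa using key
    have hne : ∀ i j : ℕ, ∀ (hi : i < t) (hj : j < t), i ≠ j → (⟨i, hi⟩ : Fin t) ≠ ⟨j, hj⟩ := by
      intro i j hi hj h h'
      exact h (Fin.mk.inj_iff.1 h')
    rcases exists_three_sq (hqa ⟨0, by omega⟩) (hqa ⟨1, by omega⟩) (hqa ⟨2, by omega⟩) with h | h | h
    · exact C.star_two hG hP (by omega) hm hmp hw hqw0 (hne 0 1 _ _ (by omega)) (ha _) (ha _) (hqa _) (hqa _)
        h (hwa _) (hwa _)
    · exact C.star_two hG hP (by omega) hm hmp hw hqw0 (hne 0 2 _ _ (by omega)) (ha _) (ha _) (hqa _) (hqa _)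
        h (hwa _) (hwa _)
    · exact C.star_two hG hP (by omega) hm hmp hw hqw0 (hne 1 2 _ _ (by omega)) (ha _) (ha _) (hqa _) (hqa _)
        h (hwa _) (hwa _)
  · push Not at han
    obtain ⟨i₀, x₀, hx₀, hqx₀, hx₀0⟩ := han
    have hiso : ∀ i, ∃ x ∈ D i, Q x = 0 ∧ x ≠ 0 := by
      intro i
      by_contra hcon
      push Not at hcon
      exact hx₀0 ((C.aniso_iff i i₀).1 hcon x₀ hx₀ hqx₀)
    have h7 : 7 ≤ Nat.card F := by
      rcases (hG i₀).good with h | h
      · exact h
      · exact absurd (h.1 x₀ hx₀ hqx₀) hx₀0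
    have hpair : ∀ i, ∃ e ∈ D i, ∃ f ∈ D i, Q e = 0 ∧ Q f = 0 ∧ polar Q e f = 1 ∧
        ∀ x ∈ D i, x = polar Q x f • e + polar Q x e • f := by
      intro i
      obtain ⟨e, he, hqe, he0⟩ := hiso i
      obtain ⟨f, hf, hqf, hef, hx⟩ := plane_hyp (C.hD.dim i) (C.hD.nondeg i) he he0 hqe
      exact ⟨e, he, f, hf, hqe, hqf, hef, hx⟩
    choose e he f hf hqe hqf hef hex using hpair
    have hfe : ∀ i, polar Q (f i) (e i) = 1 := fun i => by rw [pc]; exact hef i
    have hee : ∀ i, polar Q (e i) (e i) = 0 := fun i => by rw [pself, hqe, mul_zero]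
    have hff : ∀ i, polar Q (f i) (f i) = 0 := fun i => by rw [pself, hqf, mul_zero]
    obtain ⟨μ, hμ⟩ : ∃ μ : V ≃ₗ[F] V, μ = ((m⁻¹ : OGrp Q) : V ≃ₗ[F] V) := ⟨_, rfl⟩
    -- coordinates
    set A : Fin t → Fin t → F := fun i l => polar Q (μ (e i)) (f l) with hA
    set A' : Fin t → Fin t → F := fun i l => polar Q (μ (f i)) (f l) with hA'
    set B : Fin t → Fin t → F := fun i l => polar Q (μ (e i)) (e l) with hB
    set B' : Fin t → Fin t → F := fun i l => polar Q (μ (f i)) (e l) with hB'
    -- at most two non-singular components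
    have htwo : ∀ i, ∀ c : F, c ≠ 0 → (Finset.univ.filter fun l => ¬ ((c * A i l + A' i l) * (c * B i l + B' i l) = 0)).card ≤ 2 := by
      intro i c hc
      by_contra hcon
      push Not at hcon
      obtain ⟨l₁, h1, l₂, h2, l₃, h3, h12, h13, h23⟩ := Finset.two_lt_card.1 hcon
      simp only [Finset.mem_filter, Finset.mem_univ, true_and] at h1 h2 h3
      have hw : c • e i + f i ∈ D i := (D i).add_mem ((D i).smul_mem _ (he i)) (hf i)
      have hqw : Q (c • e i + f i) ≠ 0 := by
        rw [qadd, qsmul, psl, hqe, hqf, hef]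
        simpa using hc
      have hval : ∀ l, ¬ ((c * A i l + A' i l) * (c * B i l + B' i l) = 0) → ∃ a ∈ D l,
          Q a = -((c * A i l + A' i l) * (c * B i l + B' i l)) ∧
          polar Q (c • e i + f i) ((m : V ≃ₗ[F] V) a) = 0 := by
        intro l hl
        refine ⟨(c * A i l + A' i l) • e l - (c * B i l + B' i l) • f l,
          (D l).sub_mem ((D l).smul_mem _ (he l)) ((D l).smul_mem _ (hf l)), ?_, ?_⟩
        · rw [qsub, qsmul, qsmul, psl, psr, hqe, hqf, hef]; ring
        · rw [polar_apply_comm, ← hμ, map_add, map_smul, pdr, psr, psr, pal, pal, psl, psl]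
          change (c * A i l + A' i l) * (c * B i l + B' i l) - (c * B i l + B' i l) * (c * A i l + A' i l) = 0
          ring
      obtain ⟨a₁, ha₁, hq₁, hp₁⟩ := hval l₁ h1
      obtain ⟨a₂, ha₂, hq₂, hp₂⟩ := hval l₂ h2
      obtain ⟨a₃, ha₃, hq₃, hp₃⟩ := hval l₃ h3
      have hq₁0 : Q a₁ ≠ 0 := by rw [hq₁]; exact neg_ne_zero.2 h1
      have hq₂0 : Q a₂ ≠ 0 := by rw [hq₂]; exact neg_ne_zero.2 h2
      have hq₃0 : Q a₃ ≠ 0 := by rw [hq₃]; exact neg_ne_zero.2 h3
      rcases exists_three_sq hq₁0 hq₂0 hq₃0 with h | h | h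
      · exact C.star_two hG hP (by omega) hm hmp hw hqw h12 ha₁ ha₂ hq₁0 hq₂0 h hp₁ hp₂
      · exact C.star_two hG hP (by omega) hm hmp hw hqw h13 ha₁ ha₃ hq₁0 hq₃0 h hp₁ hp₃
      · exact C.star_two hG hP (by omega) hm hmp hw hqw h23 ha₂ ha₃ hq₂0 hq₃0 h hp₂ hp₃
    -- two non-singular components lie in different classes
    have hcls : ∀ i, ∀ c : F, c ≠ 0 → ∀ l₁ l₂, l₁ ≠ l₂ → ¬ ((c * A i l₁ + A' i l₁) * (c * B i l₁ + B' i l₁) = 0) →
        ¬ ((c * A i l₂ + A' i l₂) * (c * B i l₂ + B' i l₂) = 0) →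
        ¬ IsSquare (((c * A i l₁ + A' i l₁) * (c * B i l₁ + B' i l₁)) *
          ((c * A i l₂ + A' i l₂) * (c * B i l₂ + B' i l₂))) := by
      intro i c hc l₁ l₂ h12 h1 h2 hsq
      have hw : c • e i + f i ∈ D i := (D i).add_mem ((D i).smul_mem _ (he i)) (hf i)
      have hqw : Q (c • e i + f i) ≠ 0 := by
        rw [qadd, qsmul, psl, hqe, hqf, hef]
        simpa using hc
      have hval : ∀ l, ¬ ((c * A i l + A' i l) * (c * B i l + B' i l) = 0) → ∃ a ∈ D l,
          Q a = -((c * A i l + A' i l) * (c * B i l + B' i l)) ∧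
          polar Q (c • e i + f i) ((m : V ≃ₗ[F] V) a) = 0 := by
        intro l hl
        refine ⟨(c * A i l + A' i l) • e l - (c * B i l + B' i l) • f l,
          (D l).sub_mem ((D l).smul_mem _ (he l)) ((D l).smul_mem _ (hf l)), ?_, ?_⟩
        · rw [qsub, qsmul, qsmul, psl, psr, hqe, hqf, hef]; ring
        · rw [polar_apply_comm, ← hμ, map_add, map_smul, pdr, psr, psr, pal, pal, psl, psl]
          change (c * A i l + A' i l) * (c * B i l + B' i l) - (c * B i l + B' i l) * (c * A i l + A' i l) = 0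
          ring
      obtain ⟨a₁, ha₁, hq₁, hp₁⟩ := hval l₁ h1
      obtain ⟨a₂, ha₂, hq₂, hp₂⟩ := hval l₂ h2
      have hq₁0 : Q a₁ ≠ 0 := by rw [hq₁]; exact neg_ne_zero.2 h1
      have hq₂0 : Q a₂ ≠ 0 := by rw [hq₂]; exact neg_ne_zero.2 h2
      exact C.star_two hG hP (by omega) hm hmp hw hqw h12 ha₁ ha₂ hq₁0 hq₂0
        (by rw [hq₁, hq₂, neg_mul_neg]; exact hsq) hp₁ hp₂
    have hsumg : ∀ i, ∀ c : F, ∑ l, (c * A i l + A' i l) * (c * B i l + B' i l) = c := by
      intro i c
      obtain ⟨x, hx, hxsum⟩ := C.hD.sup (μ (c • e i + f i))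
      have h1 : Q (μ (c • e i + f i)) = c := by
        rw [hμ, OGrp_q, qadd, qsmul, psl, hqe, hqf, hef]; ring
      rw [hxsum, C.hD.q_comp hx] at h1
      refine Eq.trans (Finset.sum_congr rfl fun l _ => ?_) h1
      have h2 : polar Q (x l) (f l) = c * A i l + A' i l := by
        rw [← C.hD.polar_comp hx l (hf l), ← hxsum, map_add, map_smul, pal, psl]
      have h3 : polar Q (x l) (e l) = c * B i l + B' i l := by
        rw [← C.hD.polar_comp hx l (he l), ← hxsum, map_add, map_smul, pal, psl]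
      conv_rhs => rw [hex l (x l) (hx l)]
      rw [qadd, qsmul, qsmul, psl, psr, hqe, hqf, hef, h2, h3]
      ring
    haveI : Fintype F := Fintype.ofFinite F
    have hcF : 7 ≤ Fintype.card F := by rwa [Nat.card_eq_fintype_card] at h7
    -- bad pairs
    set bad : Fin t → Fin t → Prop := fun i l => (A i l ≠ 0 ∨ A' i l ≠ 0) ∧ (B i l ≠ 0 ∨ B' i l ≠ 0) with hbad
    have hg : ∀ i c l, (c * A i l + A' i l) * (c * B i l + B' i l) =
        (A i l * B i l) * c * c + (A i l * B' i l + A' i l * B i l) * c + A' i l * B' i l := by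
      intro i c l; ring
    have hlin : ∀ a b : F, (a ≠ 0 ∨ b ≠ 0) → ((Finset.univ : Finset F).filter fun c => c * a + b = 0).card ≤ 1 := by
      intro a b hab
      rw [Finset.card_le_one]
      intro x hx y hy
      simp only [Finset.mem_filter, Finset.mem_univ, true_and] at hx hy
      by_cases ha : a = 0
      · exfalso
        rw [ha, mul_zero, zero_add] at hx
        rcases hab with h | h
        · exact h ha
        · exact h hx
      · have : (x - y) * a = 0 := by linear_combination hx - hy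
        exact sub_eq_zero.1 ((mul_eq_zero.1 this).resolve_right ha)
    have hbad2 : ∀ i, (Finset.univ.filter fun l => bad i l).card ≤ 2 := by
      intro i
      by_contra hcon
      push Not at hcon
      obtain ⟨S, hS, hS3⟩ := Finset.exists_subset_card_eq (show 3 ≤ _ from hcon)
      have hz1 : ∀ c : F, c ≠ 0 → (S.filter fun l => ¬ ((c * A i l + A' i l) * (c * B i l + B' i l) = 0)).card ≤ 2 :=
        fun c hc0 => (Finset.card_le_card (Finset.filter_subset_filter _ (Finset.subset_univ S))).trans (htwo i c hc0)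
      have hz2 : ∀ c : F, c ≠ 0 → 1 ≤ (S.filter fun l => (c * A i l + A' i l) * (c * B i l + B' i l) = 0).card := by
        intro c hc0
        have h1 := hz1 c hc0
        have h3 := Finset.card_filter_add_card_filter_not (s := S)
          (fun l => (c * A i l + A' i l) * (c * B i l + B' i l) = 0)
        omega
      have hz3 : ∀ l ∈ S, (((Finset.univ : Finset F).erase 0).filter
          fun c => (c * A i l + A' i l) * (c * B i l + B' i l) = 0).card ≤ 2 := by
        intro l hl
        have hb := (Finset.mem_filter.1 (hS hl)).2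
        have h1 : ((Finset.univ : Finset F).erase 0).filter
            (fun c => (c * A i l + A' i l) * (c * B i l + B' i l) = 0) ⊆
            ((Finset.univ : Finset F).filter fun c => c * A i l + A' i l = 0) ∪
            ((Finset.univ : Finset F).filter fun c => c * B i l + B' i l = 0) := by
          intro c hc
          have := (Finset.mem_filter.1 hc).2
          rw [Finset.mem_union, Finset.mem_filter, Finset.mem_filter]
          rcases mul_eq_zero.1 this with h | h
          · exact Or.inl ⟨Finset.mem_univ _, h⟩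
          · exact Or.inr ⟨Finset.mem_univ _, h⟩
        have h2 := (Finset.card_le_card h1).trans (Finset.card_union_le _ _)
        have h3 := hlin _ _ hb.1
        have h4 := hlin _ _ hb.2
        omega
      have hdc := Finset.sum_card_bipartiteAbove_eq_sum_card_bipartiteBelow (s := (Finset.univ : Finset F).erase 0) (t := S)
        (fun c l => (c * A i l + A' i l) * (c * B i l + B' i l) = 0)
      simp only [Finset.bipartiteAbove, Finset.bipartiteBelow] at hdc
      have hU : ((Finset.univ : Finset F).erase 0).card = Fintype.card F - 1 := by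
        rw [Finset.card_erase_of_mem (Finset.mem_univ _), Finset.card_univ]
      have hup : ∑ l ∈ S, (((Finset.univ : Finset F).erase 0).filter
          fun c => (c * A i l + A' i l) * (c * B i l + B' i l) = 0).card ≤ 6 := by
        refine (Finset.sum_le_card_nsmul S _ 2 hz3).trans ?_
        rw [hS3]; norm_num
      -- exactly one zero for every `c`
      have hone : ∀ c : F, c ≠ 0 → (S.filter fun l => (c * A i l + A' i l) * (c * B i l + B' i l) = 0).card ≤ 1 := by
        intro c₀ hc₀
        by_contra h2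
        push Not at h2
        have h3 : c₀ ∈ (Finset.univ : Finset F).erase 0 := Finset.mem_erase.2 ⟨hc₀, Finset.mem_univ _⟩
        rw [← Finset.add_sum_erase _ _ h3] at hdc
        have h4 : (((Finset.univ : Finset F).erase 0).erase c₀).card • 1 ≤
            ∑ c ∈ ((Finset.univ : Finset F).erase 0).erase c₀,
              (S.filter fun l => (c * A i l + A' i l) * (c * B i l + B' i l) = 0).card :=
          Finset.card_nsmul_le_sum _ _ 1 fun c hc =>
            hz2 c (Finset.mem_erase.1 (Finset.mem_erase.1 hc).2).1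
        rw [Finset.card_erase_of_mem h3, hU, smul_eq_mul, mul_one] at h4
        omega
      have h7' : Fintype.card F = 7 := by
        have h4 : ((Finset.univ : Finset F).erase 0).card • 1 ≤
            ∑ c ∈ (Finset.univ : Finset F).erase 0,
              (S.filter fun l => (c * A i l + A' i l) * (c * B i l + B' i l) = 0).card :=
          Finset.card_nsmul_le_sum _ _ 1 fun c hc => hz2 c (Finset.mem_erase.1 hc).1
        rw [hU, smul_eq_mul, mul_one, hdc] at h4
        omega
      have hp : (Fintype.card F).Prime := by rw [h7']; norm_num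
      obtain ⟨φ⟩ : Nonempty (F ≃+* ZMod 7) := ⟨(ZMod.ringEquivOfPrime F (p := 7) (by norm_num) h7').symm⟩
      have hval : ∀ l ∈ S, ∀ c : F, c ≠ 0 → (c * A i l + A' i l) * (c * B i l + B' i l) = 0 ∨
          (c * A i l + A' i l) * (c * B i l + B' i l) = 2 * c ∨
          (c * A i l + A' i l) * (c * B i l + B' i l) = 6 * c := by
        intro l hl c hc0
        by_cases hl0 : (c * A i l + A' i l) * (c * B i l + B' i l) = 0
        · exact Or.inl hl0
        right
        -- the second nonzero index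
        have h3 := Finset.card_filter_add_card_filter_not (s := S)
          (fun l => (c * A i l + A' i l) * (c * B i l + B' i l) = 0)
        have h4 := hone c hc0
        have h5 : 1 < (S.filter fun l => ¬ ((c * A i l + A' i l) * (c * B i l + B' i l) = 0)).card := by omega
        obtain ⟨l', hl', hll⟩ := Finset.exists_mem_ne h5 l
        obtain ⟨hl'S, hl'0⟩ := Finset.mem_filter.1 hl'
        have h6 : ∀ k, k ≠ l → k ≠ l' → (c * A i k + A' i k) * (c * B i k + B' i k) = 0 := by
          intro k hk hk'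
          by_contra hk0
          have h7 : ({l, l', k} : Finset (Fin t)) ⊆ Finset.univ.filter fun l =>
              ¬ ((c * A i l + A' i l) * (c * B i l + B' i l) = 0) := by
            intro x hx
            simp only [Finset.mem_insert, Finset.mem_singleton] at hx
            rw [Finset.mem_filter]
            refine ⟨Finset.mem_univ _, ?_⟩
            rcases hx with rfl | rfl | rfl
            · exact hl0
            · exact hl'0
            · exact hk0
          have h8 := Finset.card_le_card h7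
          rw [Finset.card_eq_three.2 ⟨l, l', k, Ne.symm hll, Ne.symm hk, Ne.symm hk', rfl⟩] at h8
          have h9 := htwo i c hc0
          omega
        have h7 := hsumg i c
        rw [← Finset.add_sum_erase _ _ (Finset.mem_univ l),
          ← Finset.add_sum_erase (Finset.univ.erase l) _ (Finset.mem_erase.2 ⟨hll, Finset.mem_univ l'⟩),
          Finset.sum_eq_zero (fun k hk => h6 k (Finset.mem_erase.1 (Finset.mem_erase.1 hk).2).1
            (Finset.mem_erase.1 hk).1), add_zero] at h7
        have h8 := hcls i c hc0 l l' (Ne.symm hll) hl0 hl'0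
        have h9 : (c * A i l' + A' i l') * (c * B i l' + B' i l') =
            c - (c * A i l + A' i l) * (c * B i l + B' i l) := by linear_combination h7
        rw [h9] at h8 hl'0
        have h10 := z7' (φ ((c * A i l + A' i l) * (c * B i l + B' i l))) (φ c) (by
          rw [ne_eq, map_eq_zero_iff φ φ.injective]; exact hc0) (by
          rw [ne_eq, map_eq_zero_iff φ φ.injective]; exact hl0) (by
          rw [← map_sub, ne_eq, map_eq_zero_iff φ φ.injective]; exact hl'0) (by
          intro r hr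
          apply h8
          refine ⟨φ.symm r, φ.injective ?_⟩
          rw [map_mul, map_mul φ (φ.symm r), RingEquiv.apply_symm_apply, map_sub]
          exact hr)
        rcases h10 with h | h
        · left
          apply φ.injective
          rw [h, map_mul, map_ofNat]
        · right
          apply φ.injective
          rw [h, map_mul, map_ofNat]
      have hzero : ∀ l ∈ S, A i l * B i l = 0 ∧ A' i l * B' i l = 0 := by
        intro l hl
        have h3 := z7 (φ (A i l * B i l)) (φ (A i l * B' i l + A' i l * B i l)) (φ (A' i l * B' i l)) (by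
          intro c hc0
          have hc0' : φ.symm c ≠ 0 := by rwa [ne_eq, map_eq_zero_iff φ.symm φ.symm.injective]
          have e1 : φ (A i l * B i l) * c * c + φ (A i l * B' i l + A' i l * B i l) * c + φ (A' i l * B' i l) =
              φ ((φ.symm c * A i l + A' i l) * (φ.symm c * B i l + B' i l)) := by
            rw [hg]
            simp only [map_add, map_mul, RingEquiv.apply_symm_apply]
          rw [e1]
          rcases hval l hl (φ.symm c) hc0' with h | h | h
          · left; rw [h, map_zero]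
          · right; left; rw [h, map_mul, map_ofNat, RingEquiv.apply_symm_apply]
          · right; right; rw [h, map_mul, map_ofNat, RingEquiv.apply_symm_apply])
        exact ⟨(map_eq_zero_iff φ φ.injective).1 h3.1, (map_eq_zero_iff φ φ.injective).1 h3.2⟩
      obtain ⟨l, hl⟩ := Finset.card_pos.1 (lt_of_lt_of_le Nat.zero_lt_one (hz2 1 one_ne_zero))
      obtain ⟨hlS, hl0⟩ := Finset.mem_filter.1 hl
      obtain ⟨h3, h4⟩ := hzero l hlS
      have hb := (Finset.mem_filter.1 (hS hlS)).2
      rw [hbad] at hb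
      rw [one_mul, one_mul] at hl0
      rcases mul_eq_zero.1 h3 with h5 | h5 <;> rcases mul_eq_zero.1 h4 with h6 | h6
      · rcases hb.1 with h | h
        · exact h h5
        · exact h h6
      · rw [h5, h6, zero_add, add_zero] at hl0
        rcases mul_eq_zero.1 hl0 with h7 | h7
        · rcases hb.1 with h | h
          · exact h h5
          · exact h h7
        · rcases hb.2 with h | h
          · exact h h7
          · exact h h6
      · rw [h5, h6, zero_add, add_zero] at hl0
        rcases mul_eq_zero.1 hl0 with h7 | h7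
        · rcases hb.1 with h | h
          · exact h h7
          · exact h h6
        · rcases hb.2 with h | h
          · exact h h5
          · exact h h7
      · rcases hb.2 with h | h
        · exact h h5
        · exact h h6
    -- a member with three good partners
    obtain ⟨j, hj⟩ : ∃ j, 2 < (Finset.univ.filter fun i => ¬ bad i j).card := by
      by_contra hcon
      push Not at hcon
      have hdc := Finset.card_mul_le_card_mul (s := (Finset.univ : Finset (Fin t)))
        (t := (Finset.univ : Finset (Fin t))) (fun j i => bad i j) (m := t - 2) (n := 2) (by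
          intro j _
          have h1 := hcon j
          have h3 := Finset.card_filter_add_card_filter_not (s := (Finset.univ : Finset (Fin t)))
            (fun i => bad i j)
          rw [Finset.card_univ, Fintype.card_fin] at h3
          rw [Finset.bipartiteAbove]
          omega) (by
          intro i _
          rw [Finset.bipartiteBelow]
          exact hbad2 i)
      rw [Finset.card_univ, Fintype.card_fin] at hdc
      have h5 := Nat.le_of_mul_le_mul_left hdc (by omega)
      omega
    obtain ⟨i₁, h1, i₂, h2, i₃, h3, h12, h13, h23⟩ := Finset.two_lt_card.1 hj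
    simp only [Finset.mem_filter, Finset.mem_univ, true_and] at h1 h2 h3
    have hgood : ∀ i, ¬ bad i j → (∀ x ∈ D i, polar Q (μ x) (f j) = 0) ∨ (∀ x ∈ D i, polar Q (μ x) (e j) = 0) := by
      intro i hi
      rw [hbad] at hi
      by_cases h : A i j ≠ 0 ∨ A' i j ≠ 0
      · right
        have h4 : ¬ (B i j ≠ 0 ∨ B' i j ≠ 0) := fun h' => hi ⟨h, h'⟩
        push Not at h4
        intro x hx
        rw [hex i x hx, map_add, map_smul, map_smul, pal, psl, psl]
        have e1 : polar Q (μ (e i)) (e j) = 0 := h4.1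
        have e2 : polar Q (μ (f i)) (e j) = 0 := h4.2
        rw [e1, e2]; ring
      · left
        push Not at h
        intro x hx
        rw [hex i x hx, map_add, map_smul, map_smul, pal, psl, psl]
        have e1 : polar Q (μ (e i)) (f j) = 0 := h.1
        have e2 : polar Q (μ (f i)) (f j) = 0 := h.2
        rw [e1, e2]; ring
    have hfin1 : ∀ i i', i ≠ i' → (∀ x ∈ D i, polar Q (μ x) (f j) = 0) → (∀ x ∈ D i', polar Q (μ x) (f j) = 0) →
        False := by
      intro i i' hii h h'
      rw [hμ] at h h'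
      exact C.same_line hG hP h7 hm hmp (he j) (hf j) (hqe j) (hqf j) (hef j) hii h h'
    have hfin2 : ∀ i i', i ≠ i' → (∀ x ∈ D i, polar Q (μ x) (e j) = 0) → (∀ x ∈ D i', polar Q (μ x) (e j) = 0) →
        False := by
      intro i i' hii h h'
      rw [hμ] at h h'
      exact C.same_line hG hP h7 hm hmp (hf j) (he j) (hqf j) (hqe j) (hfe j) hii h h'
    rcases hgood i₁ h1 with g1 | g1 <;> rcases hgood i₂ h2 with g2 | g2 <;> rcases hgood i₃ h3 with g3 | g3
    · exact hfin1 i₁ i₂ h12 g1 g2
    · exact hfin1 i₁ i₂ h12 g1 g2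
    · exact hfin1 i₁ i₃ h13 g1 g3
    · exact hfin2 i₂ i₃ h23 g2 g3
    · exact hfin1 i₂ i₃ h23 g2 g3
    · exact hfin2 i₁ i₃ h13 g1 g3
    · exact hfin2 i₁ i₂ h12 g1 g2
    · exact hfin2 i₁ i₂ h12 g1 g2


/-- Overgroups of the stabiliser, five or six members of dimension two. -/
theorem two_max5 (C : DC Q M 2 D) (hG : ∀ i, Good Q (D i)) (ht : t = 5 ∨ t = 6) (hM : ∃ g ∈ M, ¬ Pres D g) :
    commutator (OGrp Q) ≤ M := by
  by_contra hcon
  have hP : HP M D := fun i j u hu hqu m hm hmu =>
    C.pres_of_mem (fun M' C' j u hu hqu hinv hM' => case_one5 C' hG ht hu hqu hinv hM') hcon hu hqu hm hmu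
  obtain ⟨g, hg, hgp⟩ := hM
  exact hgp (case_two5 C hG hP (by omega) g hg)

end

end Cfsg.Agent.H95.TD
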