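import Cfsg.Agent.H95.TD6
import Cfsg.Agent.H94.OmMinus

/-!
Maximality of the stabilisers of orthogonal decompositions into five or six planes.
-/

set_option autoImplicit false
set_option linter.unusedSectionVars false
set_option linter.unusedVariables false

namespace Cfsg.Agent.H95.TD

open QuadraticMap Cfsg.Agent.Orth Cfsg.Agent.OMax Cfsg.Geo Cfsg.Agent.ODec Cfsg.Agent

theorem row_max2 {F : Type*} [Field F] [Fintype F] {n : ℕ} (hn : n = 10 ∨ n = 12) (Q : QuadraticForm F (Fin n → F))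
    (hQ : (polarBilin Q).Nondegenerate) {t : ℕ} (D : Fin t → Submodule F (Fin n → F))
    (hD : IsOrthogonalMDecomposition ⇑Q 2 D) (h2 : Fintype.card F ≠ 3)
    (h2' : (∀ i, ¬ IsPlusTypeOn ⇑Q (D i)) ∨ 7 ≤ Fintype.card F) :
    IsMaximalIn (omegaGL ⇑Q) (decompositionStabilizer D ⊓ omegaGL ⇑Q) := by
  have hcard : t * 2 = n := by
    rw [OMax.mul_eq_finrank hD.decomp.decomp]; simp
  have hfr : Module.finrank F (Fin n → F) = n := by simp
  have hF : OMax.IsFrame Q 2 D := OMax.isFrame_of_decomp hD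
  refine OMax.isMaximalIn_of_abstract Q (Cfsg.Geo.decompositionStabilizer D)
    (fun g => ∃ σ : Equiv.Perm (Fin t), ∀ i, OMax.act g (D i) = D (σ i))
    (OMax.mem_decompStab_iff _ D) ?_ ?_
  · refine proper_of_not_le Q ?_
    exact OCase.not_omegaGL_le_decompositionStabilizer hQ (by rw [Fintype.card_fin]; omega)
      hD.decomp.decomp
  · intro M _ hHM hM
    have C : DC Q M 2 D := ⟨hQ, by rw [hfr]; omega, le_refl 2, hF, OMax.isom_of_decomp hD, hHM⟩
    have hcF : Nat.card F = Fintype.card F := Nat.card_eq_fintype_card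
    refine two_max5 C (fun i => ⟨hF.dim i, hF.nondeg i, ?_⟩) (by omega) hM
    rw [hcF]
    rcases h2' with h | h
    · right
      refine ⟨fun x hx hqx => ?_, h2⟩
      by_contra hx0
      apply h i
      refine ⟨Submodule.span F {x}, ?_, ?_, ?_⟩
      · rw [Submodule.span_singleton_le_iff_mem]; exact hx
      · intro z hz
        obtain ⟨r, rfl⟩ := Submodule.mem_span_singleton.1 hz
        rw [qsmul, hqx, mul_zero]
      · rw [finrank_span_singleton hx0, hF.dim i]
    · exact Or.inl h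

/-- the clause of the tables -/
theorem dec2_geo {F : Type*} [Field F] [Fintype F] {n : ℕ} (hn : n = 10 ∨ n = 12) (Q : (Fin n → F) → F)
    (hQ : Cfsg.Geo.IsNondegenerateQuadraticForm Q) {t : ℕ} (D : Fin t → Submodule F (Fin n → F))
    (hD : Cfsg.Geo.IsOrthogonalMDecomposition Q 2 D) (h2 : Fintype.card F ≠ 3)
    (h2' : (∀ i, ¬ Cfsg.Geo.IsPlusTypeOn Q (D i)) ∨ 7 ≤ Fintype.card F) :
    Cfsg.Geo.IsMaximalIn (Cfsg.Geo.omegaGL Q) (Cfsg.Geo.decompositionStabilizer D ⊓ Cfsg.Geo.omegaGL Q) := by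
  obtain ⟨q, rfl, hq'⟩ := Cfsg.Agent.OCase.exists_qf hQ
  exact row_max2 hn q hq' D hD h2 h2'

end Cfsg.Agent.H95.TD
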